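import Mathlib
import Cfsg.Agent.CoprimeAction.Abelian

/-!
Norm identity for an element of prime order acting fixed-point-freely on a group `X` which acts on an
abelian group `V`: `⁅V, X⁆` lies in every `X`-invariant subgroup containing `C_V(b)`.
-/

set_option autoImplicit false

namespace CfsgLib.FpfRankTwo

open scoped commutatorElement

variable {Λ : Type*} [Group Λ]

/-- If `b` has prime order and acts fixed-point-freely on `X`, then `[V,X]` is generated by `X`-conjugates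
of `C_V(b)`. -/
theorem commutator_le_of_fpf [Finite Λ] {p : ℕ} (hp : p.Prime) {b : Λ} (hb : b ^ p = 1)
    (V X U : Subgroup Λ) [IsMulCommutative V] (hXV : X ≤ Subgroup.normalizer (V : Set Λ))
    (hbV : b ∈ Subgroup.normalizer (V : Set Λ)) (hbX : b ∈ Subgroup.normalizer (X : Set Λ))
    (hfix : ∀ x ∈ X, b * x = x * b → x = 1)
    (hcop : (Nat.card X).Coprime (Nat.card V))
    (hXU : X ≤ Subgroup.normalizer (U : Set Λ))
    (hU : ∀ v ∈ V, b * v = v * b → v ∈ U) : ⁅V, X⁆ ≤ U := by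
  classical
  have : Fintype X := Fintype.ofFinite _
  let φ : Subgroup.normalizer (V : Set Λ) →* MulAut V := V.normalizerMonoidHom
  have hφ : ∀ g w, ((φ g w : V) : Λ) = (g : Λ) * (w : Λ) * (g : Λ)⁻¹ := fun g w => rfl
  let bn : Subgroup.normalizer (V : Set Λ) := ⟨b, hbV⟩
  let xn : X → Subgroup.normalizer (V : Set Λ) := fun x => ⟨x, hXV x.2⟩
  let U' : Subgroup V := U.subgroupOf V
  letI : CommGroup V := { (inferInstance : Group V) with mul_comm := fun a c => mul_comm' a c }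
  let Nm : Subgroup.normalizer (V : Set Λ) → V → V := fun g w => ∏ i ∈ Finset.range p, φ (g ^ i) w
  have hNfix : ∀ g, g ^ p = 1 → ∀ w, φ g (Nm g w) = Nm g w := by
    intro g hg w
    have h1 : φ g (Nm g w) = ∏ i ∈ Finset.range p, φ (g ^ (i + 1)) w := by
      simp only [Nm, map_prod, pow_succ', map_mul, MulAut.mul_apply]
    have h2 := Finset.prod_range_succ' (fun i => φ (g ^ i) w) p
    rw [Finset.prod_range_succ] at h2
    simp only [hg, pow_zero, mul_left_inj] at h2
    rw [h1]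
    exact h2.symm
  -- every `b * x` is conjugate to `b` by an element of `X`
  let f : X → X := fun y => ⟨b⁻¹ * (y * b * (y : Λ)⁻¹), by
    rw [show b⁻¹ * ((y : Λ) * b * (y : Λ)⁻¹) = (b⁻¹ * y * b) * (y : Λ)⁻¹ by group]
    exact mul_mem ((Subgroup.mem_normalizer_iff''.1 hbX (y : Λ)).1 y.2) (inv_mem y.2)⟩
  have hf : Function.Bijective f := by
    rw [← Finite.injective_iff_bijective]
    intro y z h
    have h' : (y : Λ) * b * (y : Λ)⁻¹ = (z : Λ) * b * (z : Λ)⁻¹ :=
      mul_left_cancel (congrArg Subtype.val h)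
    have h1 : b * ((z : Λ)⁻¹ * y) = ((z : Λ)⁻¹ * y) * b := by
      calc b * ((z : Λ)⁻¹ * y) = (z : Λ)⁻¹ * ((z : Λ) * b * (z : Λ)⁻¹) * y := by group
        _ = (z : Λ)⁻¹ * ((y : Λ) * b * (y : Λ)⁻¹) * y := by rw [h']
        _ = ((z : Λ)⁻¹ * y) * b := by group
    have h2 := hfix _ (mul_mem (inv_mem z.2) y.2) h1
    exact Subtype.ext (inv_mul_eq_one.1 h2).symm
  have hconj : ∀ x : X, ∃ y : X, bn * xn x = xn y * bn * (xn y)⁻¹ := by
    intro x
    obtain ⟨y, rfl⟩ := hf.2 x
    exact ⟨y, Subtype.ext (mul_inv_cancel_left b _)⟩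
  have hbn : bn ^ p = 1 := Subtype.ext hb
  have hord : ∀ x : X, (bn * xn x) ^ p = 1 := by
    intro x
    obtain ⟨y, hy⟩ := hconj x
    rw [hy, conj_pow, hbn, mul_one, mul_inv_cancel]
  have hNU : ∀ (x : X) (w : V), Nm (bn * xn x) w ∈ U' := by
    intro x w
    obtain ⟨y, hy⟩ := hconj x
    have h := hNfix _ (hord x) w
    generalize Nm (bn * xn x) w = n at h ⊢
    rw [hy] at h
    have h' : (y : Λ) * b * (y : Λ)⁻¹ * (n : Λ) * ((y : Λ) * b * (y : Λ)⁻¹)⁻¹ = n := congrArg Subtype.val h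
    have hfixn : b * ((y : Λ)⁻¹ * n * y) = ((y : Λ)⁻¹ * n * y) * b := by
      calc b * ((y : Λ)⁻¹ * n * y)
          = (y : Λ)⁻¹ * ((y : Λ) * b * (y : Λ)⁻¹ * (n : Λ) * ((y : Λ) * b * (y : Λ)⁻¹)⁻¹) * y * b := by
            group
        _ = ((y : Λ)⁻¹ * n * y) * b := by rw [h']
    have h3 := hU _ ((Subgroup.mem_normalizer_iff''.1 (hXV y.2) (n : Λ)).1 n.2) hfixn
    exact (Subgroup.mem_normalizer_iff''.1 (hXU y.2) (n : Λ)).2 h3
  have hbU : ∀ w : V, Nm bn w ∈ U' := by
    intro w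
    have h := congrArg Subtype.val (hNfix bn hbn w)
    exact hU _ (Nm bn w).2 (mul_inv_eq_iff_eq_mul.1 h)
  let m : V → V := fun w => ∏ x : X, φ (xn x) w
  have hinner : ∀ i ∈ Finset.range p, i ≠ 0 → ∀ w : V,
      ∏ x : X, φ ((bn * xn x) ^ i) w = φ (bn ^ i) (m w) := by
    intro i hi hi0 w
    have hmem : ∀ (x : X) (k : ℕ), (b ^ k)⁻¹ * (b * x) ^ k ∈ X := by
      intro x k
      induction k with
      | zero => simp
      | succ k ih =>
        rw [pow_succ, pow_succ, mul_inv_rev,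
          show b⁻¹ * (b ^ k)⁻¹ * ((b * x) ^ k * (b * x)) = b⁻¹ * ((b ^ k)⁻¹ * (b * x) ^ k) * b * x by group]
        exact mul_mem ((Subgroup.mem_normalizer_iff''.1 hbX _).1 ih) x.2
    let g : X → X := fun x => ⟨_, hmem x i⟩
    have hg : Function.Bijective g := by
      rw [← Finite.injective_iff_bijective]
      intro x z h
      have h1 : (b * (x : Λ)) ^ i = (b * (z : Λ)) ^ i := mul_left_cancel (congrArg Subtype.val h)
      have hlt : i < p := Finset.mem_range.1 hi
      obtain ⟨j, hj⟩ := Nat.exists_mul_mod_eq_one_of_coprime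
        ((hp.coprime_iff_not_dvd.2 fun hd => absurd (Nat.le_of_dvd (Nat.pos_of_ne_zero hi0) hd) (by omega)).symm)
        hp.one_lt
      have key : ∀ y : X, ((b * (y : Λ)) ^ i) ^ j = b * y := by
        intro y
        have hy : (b * (y : Λ)) ^ p = 1 := congrArg Subtype.val (hord y)
        rw [← pow_mul, ← Nat.mod_add_div (i * j) p, hj.2, pow_add, pow_mul, hy, one_pow, mul_one, pow_one]
      have h2 : b * (x : Λ) = b * (z : Λ) := by rw [← key x, ← key z, h1]
      exact Subtype.ext (mul_left_cancel h2)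
    simp only [m]
    rw [map_prod, ← (Equiv.ofBijective g hg).prod_comp (fun x => φ (bn ^ i) (φ (xn x) w))]
    refine Finset.prod_congr rfl fun x _ => ?_
    rw [← MulAut.mul_apply, ← map_mul]
    congr 2
    exact Subtype.ext (mul_inv_cancel_left (b ^ i) ((b * (x : Λ)) ^ i)).symm
  have hmain : ∀ w : V, w ^ Fintype.card X * (m w)⁻¹ ∈ U' := by
    intro w
    obtain ⟨q, rfl⟩ : ∃ q, p = q + 1 := ⟨p - 1, (Nat.succ_pred_eq_of_pos hp.pos).symm⟩
    have h1 : ∏ x : X, Nm (bn * xn x) w ∈ U' := prod_mem fun x _ => hNU x w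
    have h2 := hbU (m w)
    have e1 : ∏ x : X, Nm (bn * xn x) w =
        (∏ i ∈ Finset.range q, φ (bn ^ (i + 1)) (m w)) * w ^ Fintype.card X := by
      simp only [Nm]
      rw [Finset.prod_comm, Finset.prod_range_succ']
      congr 1
      · exact Finset.prod_congr rfl fun i hi => hinner _ (by simp only [Finset.mem_range] at hi ⊢; omega) (by omega) w
      · simp
    have e2 : Nm bn (m w) = (∏ i ∈ Finset.range q, φ (bn ^ (i + 1)) (m w)) * m w := by
      simp only [Nm]
      rw [Finset.prod_range_succ']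
      simp
    have := mul_mem h1 (inv_mem h2)
    rwa [e1, e2, mul_inv_rev, mul_comm (m w)⁻¹, ← mul_assoc, mul_right_comm _ (w ^ _), mul_inv_cancel, one_mul]
      at this
  rw [Subgroup.commutator_le]
  intro v hv x hx
  let w : V := ⟨v, hv⟩⁻¹
  let x0 : X := ⟨x, hx⟩
  have hm : m (φ (xn x0) w) = m w := by
    simp only [m]
    rw [← Equiv.prod_comp (Equiv.mulRight x0) (fun y => φ (xn y) w)]
    refine Finset.prod_congr rfl fun y _ => ?_
    rw [← MulAut.mul_apply, ← map_mul]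
    rfl
  have h3 : (φ (xn x0) w * w⁻¹) ^ Fintype.card X ∈ U' := by
    have := mul_mem (hmain (φ (xn x0) w)) (inv_mem (hmain w))
    rw [hm, mul_inv_rev, inv_inv, mul_assoc, inv_mul_cancel_left] at this
    rwa [mul_pow, inv_pow]
  obtain ⟨k, hk⟩ := exists_pow_eq_self_of_coprime (x := φ (xn x0) w * w⁻¹) (n := Fintype.card X)
    ((Fintype.card_eq_nat_card (α := X) ▸ hcop).coprime_dvd_right (orderOf_dvd_natCard _))
  have h4 : φ (xn x0) w * w⁻¹ ∈ U' := hk ▸ pow_mem h3 k
  have e : ⁅v, x⁆ = ((φ (xn x0) w * w⁻¹ : V) : Λ) := by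
    have : φ (xn x0) w * w⁻¹ = ⟨v, hv⟩ * φ (xn x0) w := by rw [mul_comm]; simp [w]
    rw [this, commutatorElement_def, Subgroup.coe_mul, hφ]
    simp [w, xn, x0, mul_assoc]
  rw [e]; exact h4

end CfsgLib.FpfRankTwo
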