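import Mathlib
import Cfsg.Agent.FpfRankTwo.Norm
import Cfsg.Agent.ZJ.Fpf
import Cfsg.Agent.Hall.Schmidt
import Cfsg.Agent.CoprimeAction.Action

/-!
A four-group like operator group `A` (order `p^2`, exponent `p`) without fixed points on `K`:
an `A`-invariant `s`-subgroup normalising an `A`-invariant `q`-subgroup `Q` (`s ≠ q`) which is faithful
on a normal abelian `r`-subgroup (`r ≠ q`) centralises `Q`.
-/

set_option autoImplicit false

namespace CfsgLib.FpfRankTwo

open scoped commutatorElement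
open CfsgLib.CoprimeAction

variable {Λ : Type*} [Group Λ]

/-- Elements normalising `Q` and `D` which act trivially on `Q` modulo `D`. -/
def stab (Q D : Subgroup Λ) : Subgroup Λ where
  carrier := {g | g ∈ Subgroup.normalizer (Q : Set Λ) ∧ ∀ q ∈ Q, g * q * g⁻¹ * q⁻¹ ∈ D}
  one_mem' := ⟨one_mem _, fun q _ => by simp⟩
  mul_mem' := fun {g h} hg hh => ⟨mul_mem hg.1 hh.1, fun q hq => by
    have h1 := hg.2 (h * q * h⁻¹) ((Subgroup.mem_normalizer_iff.1 hh.1 q).1 hq)
    have h2 := mul_mem h1 (hh.2 q hq)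
    rwa [show g * (h * q * h⁻¹) * g⁻¹ * (h * q * h⁻¹)⁻¹ * (h * q * h⁻¹ * q⁻¹)
      = g * h * q * (g * h)⁻¹ * q⁻¹ by group] at h2⟩
  inv_mem' := fun {g} hg => ⟨inv_mem hg.1, fun q hq => by
    have h1 := inv_mem (hg.2 (g⁻¹ * q * g) ((Subgroup.mem_normalizer_iff''.1 hg.1 q).1 hq))
    rwa [show (g * (g⁻¹ * q * g) * g⁻¹ * (g⁻¹ * q * g)⁻¹)⁻¹ = g⁻¹ * q * g⁻¹⁻¹ * q⁻¹ by group] at h1⟩

theorem mem_normalizer_commutator {g : Λ} {V Y : Subgroup Λ} (h1 : g ∈ Subgroup.normalizer (V : Set Λ))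
    (h2 : g ∈ Subgroup.normalizer (Y : Set Λ)) : g ∈ Subgroup.normalizer ((⁅V, Y⁆ : Subgroup Λ) : Set Λ) := by
  rw [Subgroup.mem_normalizer_iff_map_conj_eq, Subgroup.map_commutator,
    Subgroup.mem_normalizer_iff_map_conj_eq.1 h1, Subgroup.mem_normalizer_iff_map_conj_eq.1 h2]

theorem mem_normalizer_of_forall_commute {g : Λ} {Y : Subgroup Λ} (h : ∀ y ∈ Y, Commute g y) :
    g ∈ Subgroup.normalizer (Y : Set Λ) :=
  Subgroup.centralizer_le_normalizer (Y : Set Λ)
    (Subgroup.mem_centralizer_iff.2 fun y hy => (h y hy).eq.symm)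

theorem le_centralizer_singleton {g : Λ} {X : Subgroup Λ} (h : ∀ x ∈ X, Commute g x) :
    X ≤ Subgroup.centralizer ({g} : Set Λ) := fun x hx => Subgroup.mem_centralizer_singleton_iff.2 (h x hx).eq.symm

theorem mem_normalizer_centralizer {g : Λ} {X : Subgroup Λ} (hg : g ∈ Subgroup.normalizer (X : Set Λ)) :
    g ∈ Subgroup.normalizer ((Subgroup.centralizer (X : Set Λ) : Subgroup Λ) : Set Λ) := by
  rw [Subgroup.mem_normalizer_iff]
  intro n
  simp only [Subgroup.mem_centralizer_iff]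
  constructor
  · intro hn x hx
    calc x * (g * n * g⁻¹) = g * ((g⁻¹ * x * g) * n) * g⁻¹ := by group
      _ = g * (n * (g⁻¹ * x * g)) * g⁻¹ := by rw [hn _ ((Subgroup.mem_normalizer_iff''.1 hg x).1 hx)]
      _ = g * n * g⁻¹ * x := by group
  · intro hn x hx
    calc x * n = g⁻¹ * ((g * x * g⁻¹) * (g * n * g⁻¹)) * g := by group
      _ = g⁻¹ * ((g * n * g⁻¹) * (g * x * g⁻¹)) * g := by rw [hn _ ((Subgroup.mem_normalizer_iff.1 hg x).1 hx)]
      _ = n * x := by group

/-- Data: `A` of order `p^2` and exponent `p` acting on `K` without fixed points. -/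
structure Setup (p : ℕ) (A K : Subgroup Λ) : Prop where
  hp : p.Prime
  comm : ∀ a ∈ A, ∀ b ∈ A, Commute a b
  expA : ∀ a ∈ A, a ^ p = 1
  cardA : Nat.card A = p ^ 2
  hAK : A ≤ Subgroup.normalizer (K : Set Λ)
  hcop : (Nat.card A).Coprime (Nat.card K)
  fix : ∀ x ∈ K, (∀ a ∈ A, Commute a x) → x = 1

namespace Setup

variable [Finite Λ] {p : ℕ} {A K : Subgroup Λ}

theorem coprime_p (S : Setup p A K) : p.Coprime (Nat.card K) := by
  have h := S.hcop
  rw [S.cardA] at h
  exact (Nat.coprime_pow_left_iff (by norm_num) p _).1 h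

theorem orderOf_eq (S : Setup p A K) {a : Λ} (ha : a ∈ A) (ha1 : a ≠ 1) : orderOf a = p := by
  haveI := Fact.mk S.hp
  exact orderOf_eq_prime (S.expA a ha) ha1

theorem sup_eq (S : Setup p A K) {a c : Λ} (ha : a ∈ A) (ha1 : a ≠ 1) (hc : c ∈ A)
    (hca : c ∉ Subgroup.zpowers a) : Subgroup.zpowers a ⊔ Subgroup.zpowers c = A := by
  have hle : Subgroup.zpowers a ⊔ Subgroup.zpowers c ≤ A :=
    sup_le (Subgroup.zpowers_le.2 ha) (Subgroup.zpowers_le.2 hc)
  refine Subgroup.eq_of_le_of_card_ge hle ?_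
  have h1 : Nat.card (Subgroup.zpowers a) = p := by rw [Nat.card_zpowers, S.orderOf_eq ha ha1]
  have h2 := Subgroup.card_dvd_of_le hle
  rw [S.cardA] at h2
  obtain ⟨k, hk, he⟩ := (Nat.dvd_prime_pow S.hp).1 h2
  rw [S.cardA, he]
  refine Nat.pow_le_pow_right S.hp.pos ?_
  by_contra hk2
  have h3 : Subgroup.zpowers a = Subgroup.zpowers a ⊔ Subgroup.zpowers c :=
    Subgroup.eq_of_le_of_card_ge le_sup_left (by
      rw [he, h1]
      exact (Nat.pow_le_pow_right S.hp.pos (show k ≤ 1 by omega)).trans (by rw [pow_one]))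
  exact hca (h3 ▸ Subgroup.mem_sup_right (Subgroup.mem_zpowers c))

theorem exists_other (S : Setup p A K) {a : Λ} (ha : a ∈ A) : ∃ c ∈ A, c ∉ Subgroup.zpowers a := by
  by_contra h
  push_neg at h
  have h1 : Nat.card A ≤ Nat.card (Subgroup.zpowers a) := Subgroup.card_le_of_le h
  rw [S.cardA, Nat.card_zpowers] at h1
  have h2 : orderOf a ≤ p := orderOf_le_of_pow_eq_one S.hp.pos (S.expA a ha)
  have := S.hp.two_le
  nlinarith

theorem not_cyclic (S : Setup p A K) : ¬ IsCyclic A := by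
  intro h
  obtain ⟨⟨g, hg⟩, hgen⟩ := h.exists_generator
  obtain ⟨c, hc, hcg⟩ := S.exists_other hg
  obtain ⟨k, hk⟩ := Subgroup.mem_zpowers_iff.1 (hgen ⟨c, hc⟩)
  exact hcg (Subgroup.mem_zpowers_iff.2 ⟨k, congrArg Subtype.val hk⟩)

theorem fix_pair (S : Setup p A K) {a c : Λ} (ha : a ∈ A) (ha1 : a ≠ 1) (hc : c ∈ A)
    (hca : c ∉ Subgroup.zpowers a) {x : Λ} (hx : x ∈ K) (h1 : Commute a x) (h2 : Commute c x) : x = 1 := by
  refine S.fix x hx fun e he => ?_
  have hle : A ≤ Subgroup.centralizer ({x} : Set Λ) := by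
    rw [← S.sup_eq ha ha1 hc hca]
    exact sup_le (Subgroup.zpowers_le.2 (Subgroup.mem_centralizer_singleton_iff.2 h1.eq))
      (Subgroup.zpowers_le.2 (Subgroup.mem_centralizer_singleton_iff.2 h2.eq))
  exact Subgroup.mem_centralizer_singleton_iff.1 (hle he)

theorem gen (S : Setup p A K) {X W : Subgroup Λ} (hXK : X ≤ K) (hAX : A ≤ Subgroup.normalizer (X : Set Λ))
    (h : ∀ c ∈ A, c ≠ 1 → ∀ x ∈ X, Commute c x → x ∈ W) : X ≤ W := by
  haveI : IsMulCommutative A := ⟨⟨fun a b => Subtype.ext (S.comm a a.2 b b.2).eq⟩⟩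
  refine le_of_centralizers_le S.not_cyclic hAX (S.hcop.coprime_dvd_right (Subgroup.card_dvd_of_le hXK))
    fun c hc hc1 x hx => ?_
  exact h c hc hc1 x hx.1 ((Subgroup.mem_centralizer_singleton_iff.1 hx.2).symm)

/-- Elements of coprime prime power order centralised by a common `c ∈ A` commute. -/
theorem commute (S : Setup p A K) {c : Λ} (hc : c ∈ A) (hc1 : c ≠ 1) {q r : ℕ} (hq : q.Prime) (hr : r.Prime)
    (hqr : q ≠ r) {X Y : Subgroup Λ} (hX : X ≤ K) (hY : Y ≤ K) (hXq : IsPGroup q X) (hYr : IsPGroup r Y)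
    {x y : Λ} (hx : x ∈ X) (hy : y ∈ Y) (hcx : Commute c x) (hcy : Commute c y) : Commute x y := by
  haveI := Fact.mk hq
  haveI := Fact.mk hr
  obtain ⟨b, hb, hbc⟩ := S.exists_other hc
  set T : Subgroup Λ := K ⊓ Subgroup.centralizer ({c} : Set Λ) with hT
  have hbT : b ∈ Subgroup.normalizer (T : Set Λ) := by
    refine Subgroup.inf_normalizer_le_normalizer_inf ⟨S.hAK hb, ?_⟩
    exact Subgroup.le_normalizer (Subgroup.mem_centralizer_singleton_iff.2 (S.comm b hb c hc).eq)
  set α : MulAut T := T.normalizerMonoidHom ⟨b, hbT⟩ with hα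
  have hαp : α ^ p = 1 := by
    rw [hα, ← map_pow, show (⟨b, hbT⟩ : Subgroup.normalizer (T : Set Λ)) ^ p = 1 from Subtype.ext (S.expA b hb),
      map_one]
  have hf : MonoidHom.FixedPointFree (α : T → T) := by
    intro z hz
    have h1 : b * (z : Λ) * b⁻¹ = z := congrArg Subtype.val hz
    exact Subtype.ext (S.fix_pair hc hc1 hb hbc z.2.1
      (Subgroup.mem_centralizer_singleton_iff.1 z.2.2).symm (mul_inv_eq_iff_eq_mul.1 h1))
  haveI := CfsgLib.ZJ.isNilpotent_of_fixedPointFree S.hp hf hαp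
  have hsub : ∀ {t : ℕ} {Z : Subgroup Λ}, IsPGroup t Z → IsPGroup t (Z ⊓ T : Subgroup Λ) :=
    fun h => h.to_le inf_le_left
  exact CfsgLib.Hall.commute_of_nilpotent_le T hqr (A := X ⊓ T) (B := Y ⊓ T) inf_le_right inf_le_right
    (hsub hXq) (hsub hYr) x ⟨hx, hX hx, Subgroup.mem_centralizer_singleton_iff.2 hcx.eq.symm⟩
    y ⟨hy, hY hy, Subgroup.mem_centralizer_singleton_iff.2 hcy.eq.symm⟩

end Setup

/-- If `b` acts fixed-point-freely on `P`, every element of `P` is of the form `b⁻¹ y b y⁻¹`. -/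
theorem exists_eq_commutator [Finite Λ] {b : Λ} {P : Subgroup Λ} (hbP : b ∈ Subgroup.normalizer (P : Set Λ))
    (hfix : ∀ x ∈ P, Commute b x → x = 1) {z : Λ} (hz : z ∈ P) :
    ∃ y ∈ P, z = b⁻¹ * (y * b * y⁻¹) := by
  let f : P → P := fun y => ⟨b⁻¹ * (y * b * (y : Λ)⁻¹), by
    rw [show b⁻¹ * ((y : Λ) * b * (y : Λ)⁻¹) = (b⁻¹ * y * b) * (y : Λ)⁻¹ by group]
    exact mul_mem ((Subgroup.mem_normalizer_iff''.1 hbP (y : Λ)).1 y.2) (inv_mem y.2)⟩
  have hf : Function.Bijective f := by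
    rw [← Finite.injective_iff_bijective]
    intro y w h
    have h' : (y : Λ) * b * (y : Λ)⁻¹ = (w : Λ) * b * (w : Λ)⁻¹ :=
      mul_left_cancel (congrArg Subtype.val h)
    have h1 : b * ((w : Λ)⁻¹ * y) = ((w : Λ)⁻¹ * y) * b := by
      calc b * ((w : Λ)⁻¹ * y) = (w : Λ)⁻¹ * ((w : Λ) * b * (w : Λ)⁻¹) * y := by group
        _ = (w : Λ)⁻¹ * ((y : Λ) * b * (y : Λ)⁻¹) * y := by rw [h']
        _ = ((w : Λ)⁻¹ * y) * b := by group
    exact Subtype.ext (inv_mul_eq_one.1 (hfix _ (mul_mem (inv_mem w.2) y.2) h1)).symm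
  obtain ⟨y, hy⟩ := hf.2 ⟨z, hz⟩
  exact ⟨y, y.2, (congrArg Subtype.val hy).symm⟩

/-- `C_Q(c)` centralises `[V,Y]` when it commutes with the `c`-fixed-point-free subgroup `Y` and with `C_V(c)`. -/
theorem key [Finite Λ] {p : ℕ} (hp : p.Prime) {c : Λ} (hcp : c ^ p = 1) (V Y : Subgroup Λ) [IsMulCommutative V]
    (hYV : Y ≤ Subgroup.normalizer (V : Set Λ)) (hcV : c ∈ Subgroup.normalizer (V : Set Λ))
    (hcY : c ∈ Subgroup.normalizer (Y : Set Λ)) (hfix : ∀ x ∈ Y, c * x = x * c → x = 1)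
    (hcop : (Nat.card Y).Coprime (Nat.card V)) {u : Λ} (huY : ∀ y ∈ Y, Commute u y)
    (huV : ∀ v ∈ V, Commute c v → Commute u v) : ∀ w ∈ ⁅V, Y⁆, Commute u w := by
  let U : Subgroup Λ := Subgroup.closure {z | ∃ y ∈ Y, ∃ v ∈ V, Commute c v ∧ z = y * v * y⁻¹}
  have hYU : Y ≤ Subgroup.normalizer (U : Set Λ) := by
    rw [Subgroup.le_normalizer_iff]
    intro y hy z hz
    induction hz using Subgroup.closure_induction with
    | mem z h =>
      obtain ⟨y', hy', v, hv, hcv, rfl⟩ := h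
      exact Subgroup.subset_closure ⟨y * y', mul_mem hy hy', v, hv, hcv, by group⟩
    | one => simp
    | mul a b _ _ ha hb =>
      rw [show y * (a * b) * y⁻¹ = y * a * y⁻¹ * (y * b * y⁻¹) by group]
      exact mul_mem ha hb
    | inv a _ ha =>
      rw [show y * a⁻¹ * y⁻¹ = (y * a * y⁻¹)⁻¹ by group]
      exact inv_mem ha
  have hle := commutator_le_of_fpf hp hcp V Y U hYV hcV hcY hfix hcop hYU
    (fun v hv h => Subgroup.subset_closure ⟨1, one_mem Y, v, hv, h, by simp⟩)
  have hU : U ≤ Subgroup.centralizer ({u} : Set Λ) := by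
    rw [Subgroup.closure_le]
    rintro _ ⟨y, hy, v, hv, hcv, rfl⟩
    exact Subgroup.mem_centralizer_singleton_iff.2
      ((((huY y hy).mul_right (huV v hv hcv)).mul_right ((huY y hy).inv_right)).eq.symm)
  exact fun w hw => (Subgroup.mem_centralizer_singleton_iff.1 (hU (hle hw))).symm

section Core

variable [Finite Λ] {p : ℕ} {A K : Subgroup Λ} {q r s : ℕ}

theorem core_minimal (S : Setup p A K) (hq : q.Prime) (hr : r.Prime) (hs : s.Prime) (hqr : q ≠ r)
    (hsq : s ≠ q) (V P Q : Subgroup Λ) [IsMulCommutative V]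
    (hVK : V ≤ K) (hQK : Q ≤ K) (hPK : P ≤ K) (hVr : IsPGroup r V) (hQq : IsPGroup q Q) (hPs : IsPGroup s P)
    (hAV : A ≤ Subgroup.normalizer (V : Set Λ)) (hPV : P ≤ Subgroup.normalizer (V : Set Λ))
    (hQV : Q ≤ Subgroup.normalizer (V : Set Λ))
    (hAP : A ≤ Subgroup.normalizer (P : Set Λ)) (hAQ : A ≤ Subgroup.normalizer (Q : Set Λ))
    (hPQ : P ≤ Subgroup.normalizer (Q : Set Λ))
    (hfaith : ∀ x ∈ Q, (∀ v ∈ V, Commute x v) → x = 1)
    {a : Λ} (ha : a ∈ A) (ha1 : a ≠ 1) (hPa : ∀ x ∈ P, Commute a x)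
    (hmin : ∀ L : Subgroup Λ, L ≤ Q → A ≤ Subgroup.normalizer (L : Set Λ) →
      P ≤ Subgroup.normalizer (L : Set Λ) → L ≠ Q → P ≤ Subgroup.centralizer (L : Set Λ))
    (hne : ¬ P ≤ Subgroup.centralizer (Q : Set Λ)) : False := by
  classical
  haveI := Fact.mk hq
  haveI := Fact.mk hr
  haveI := Fact.mk hs
  have copQV : (Nat.card Q).Coprime (Nat.card V) := IsPGroup.coprime_card_of_ne q r hqr _ _ hQq hVr
  have copQP : (Nat.card P).Coprime (Nat.card Q) := IsPGroup.coprime_card_of_ne s q hsq _ _ hPs hQq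
  haveI := hPs.isNilpotent
  haveI := hQq.isNilpotent
  have hcomQP : ∀ c ∈ A, c ≠ 1 → ∀ x ∈ P, ∀ y ∈ Q, Commute c x → Commute c y → Commute x y :=
    fun c hc hc1 x hx y hy h1 h2 => S.commute hc hc1 hs hq hsq hPK hQK hPs hQq hx hy h1 h2
  have hcomQV : ∀ c ∈ A, c ≠ 1 → ∀ x ∈ Q, ∀ y ∈ V, Commute c x → Commute c y → Commute x y :=
    fun c hc hc1 x hx y hy h1 h2 => S.commute hc hc1 hq hr hqr hQK hVK hQq hVr hx hy h1 h2
  obtain ⟨b, hb, hba⟩ := S.exists_other ha
  have hb1 : b ≠ 1 := fun h => hba (h ▸ one_mem _)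
  have hbP : ∀ c ∈ A, c ∉ Subgroup.zpowers a → ∀ x ∈ P, Commute c x → x = 1 :=
    fun c hc hca x hx h => S.fix_pair ha ha1 hc hca (hPK hx) (hPa x hx) h
  -- `Q = [Q,P]`
  have hQP : ⁅Q, P⁆ = Q := by
    by_contra h
    have h1 : P ≤ Subgroup.centralizer ((⁅Q, P⁆ : Subgroup Λ) : Set Λ) :=
      hmin _ (commutator_le_of_normalizer hPQ) (fun g hg => mem_normalizer_commutator (hAQ hg) (hAP hg))
        (fun g hg => mem_normalizer_commutator (hPQ hg) (Subgroup.le_normalizer hg)) h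
    have h2 : ⁅⁅Q, P⁆, P⁆ = ⊥ := by
      rw [Subgroup.commutator_comm, Subgroup.commutator_eq_bot_iff_le_centralizer]; exact h1
    rw [commutator_commutator_eq hPQ copQP (Or.inl inferInstance), Subgroup.commutator_comm,
      Subgroup.commutator_eq_bot_iff_le_centralizer] at h2
    exact hne h2
  set D : Subgroup Λ := Q ⊓ Subgroup.centralizer (P : Set Λ) with hD
  have hDQ : D ≠ Q := fun h => hne (Subgroup.le_centralizer_iff.1 (h.ge.trans inf_le_right))
  have hCa : ∀ y ∈ Q, Commute a y → y ∈ D := fun y hy h =>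
    ⟨hy, Subgroup.mem_centralizer_iff.2 fun x hx => (hcomQP a ha ha1 x hx y hy (hPa x hx) h).eq⟩
  have hAD : A ≤ Subgroup.normalizer (D : Set Λ) := fun g hg =>
    Subgroup.inf_normalizer_le_normalizer_inf ⟨hAQ hg, mem_normalizer_centralizer (hAP hg)⟩
  by_cases hab : ∀ x ∈ Q, ∀ y ∈ Q, Commute x y
  · -- abelian case
    haveI : IsMulCommutative Q := ⟨⟨fun x y => Subtype.ext (hab x x.2 y y.2).eq⟩⟩
    have hDbot : D = ⊥ := by
      have := centralizer_inf_commutator_eq_bot hPQ copQP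
      rwa [hQP, inf_eq_left.2 inf_le_left] at this
    have hCa1 : ∀ y ∈ Q, Commute a y → y = 1 := fun y hy h => by
      have := hCa y hy h
      rwa [hDbot, Subgroup.mem_bot] at this
    have hVQ : ⁅V, Q⁆ ≠ ⊥ := fun h => by
      rw [Subgroup.commutator_eq_bot_iff_le_centralizer] at h
      exact hDQ (le_antisymm inf_le_left fun x hx => by
        rw [hfaith x hx fun v hv => Subgroup.mem_centralizer_iff.1 (h hv) x hx]
        exact one_mem _)
    obtain ⟨W, ⟨hWle, hQW, hW1⟩, hWmin⟩ := Set.Finite.exists_minimal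
      (s := {W : Subgroup Λ | W ≤ ⁅V, Q⁆ ∧ Q ≤ Subgroup.normalizer (W : Set Λ) ∧ W ≠ ⊥}) (Set.toFinite _)
      ⟨_, le_rfl, fun g hg => mem_normalizer_commutator (hQV hg) (Subgroup.le_normalizer hg), hVQ⟩
    have hWV : W ≤ V := hWle.trans (commutator_le_of_normalizer hQV)
    have hQW' : ¬ Q ≤ Subgroup.centralizer (W : Set Λ) := by
      intro h
      apply hW1
      have := centralizer_inf_commutator_eq_bot hQV copQV
      exact eq_bot_iff.2 fun w hw => this.le ⟨⟨hWV hw, Subgroup.le_centralizer_iff.1 h hw⟩, hWle hw⟩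
    set St := stab Q (Q ⊓ Subgroup.centralizer (W : Set Λ)) with hSt
    have hdich : ∀ c : Λ, c ^ p = 1 → c ∈ Subgroup.normalizer (V : Set Λ) → c ∈ Subgroup.normalizer (Q : Set Λ) →
        (∀ x ∈ Q, ∀ v ∈ V, Commute c x → Commute c v → Commute x v) →
        (∀ x ∈ Q, Commute c x → x ∈ Subgroup.centralizer (W : Set Λ)) ∨ c ∈ St := by
      intro c hcp hcV hcQ hcomm
      have hzQ : Subgroup.zpowers c ≤ Subgroup.normalizer (Q : Set Λ) := Subgroup.zpowers_le.2 hcQ
      have hzcop : (Nat.card (Subgroup.zpowers c)).Coprime (Nat.card Q) := by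
        rw [Nat.card_zpowers]
        exact ((S.coprime_p.coprime_dvd_right (Subgroup.card_dvd_of_le hQK))).coprime_dvd_left
          (orderOf_dvd_of_pow_eq_one hcp)
      set Y : Subgroup Λ := ⁅Q, Subgroup.zpowers c⁆ with hY
      have hYQ : Y ≤ Q := commutator_le_of_normalizer hzQ
      by_cases hYW : Y ≤ Subgroup.centralizer (W : Set Λ)
      · refine Or.inr ⟨hcQ, fun x hx => ?_⟩
        have h1 : c * x * c⁻¹ * x⁻¹ ∈ Y := by
          rw [hY, Subgroup.commutator_comm, ← commutatorElement_def]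
          exact Subgroup.commutator_mem_commutator (Subgroup.mem_zpowers c) hx
        exact ⟨hYQ h1, hYW h1⟩
      · refine Or.inl fun x hx hcx => ?_
        have hfix : ∀ y ∈ Y, c * y = y * c → y = 1 := by
          intro y hy h
          have := centralizer_inf_commutator_eq_bot (A := Subgroup.zpowers c) (V := Q) hzQ hzcop
          refine this.le ⟨⟨hYQ hy, ?_⟩, hy⟩
          refine Subgroup.mem_centralizer_iff.2 ?_
          intro z hz
          obtain ⟨k, rfl⟩ := Subgroup.mem_zpowers_iff.1 hz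
          exact (Commute.zpow_left h k).eq
        have hWY : ⁅W, Y⁆ = W := by
          have hle : ⁅W, Y⁆ ≤ W := commutator_le_of_normalizer (hYQ.trans hQW)
          refine le_antisymm hle (hWmin ⟨hle.trans hWle, fun g hg => mem_normalizer_commutator (hQW hg)
            (mem_normalizer_of_forall_commute fun y hy => hab g hg y (hYQ hy)), fun h => ?_⟩ hle)
          rw [Subgroup.commutator_eq_bot_iff_le_centralizer] at h
          exact hYW (Subgroup.le_centralizer_iff.1 h)
        rw [Subgroup.mem_centralizer_iff]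
        intro w hw
        refine (key S.hp hcp V Y (hYQ.trans hQV) hcV ?_ hfix (copQV.coprime_dvd_left (Subgroup.card_dvd_of_le hYQ))
          (fun y hy => hab x hx y (hYQ hy)) (fun v hv h => hcomm x hx v hv hcx h) w
          (Subgroup.commutator_mono hWV le_rfl (hWY.ge hw))).eq.symm
        exact mem_normalizer_commutator hcQ (Subgroup.le_normalizer (Subgroup.mem_zpowers c))
    have hclaim : ∀ x ∈ P, ∃ i : ℕ, a ^ i * (x * b * x⁻¹) ∈ St := by
      intro x hx
      obtain ⟨c, hc, hca, hcS⟩ : ∃ c ∈ A, c ∉ Subgroup.zpowers a ∧ x * c * x⁻¹ ∈ St := by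
        by_contra hcon
        push_neg at hcon
        apply hQW'
        have hgen : Q ≤ (Subgroup.centralizer (W : Set Λ)).comap (MulAut.conj x).toMonoidHom := by
          refine S.gen hQK hAQ fun c hc hc1 y hy hcy => ?_
          by_cases hca : c ∈ Subgroup.zpowers a
          · have : Commute a y := by
              have hz : Subgroup.zpowers c = Subgroup.zpowers a :=
                Subgroup.eq_of_le_of_card_ge (Subgroup.zpowers_le.2 hca)
                  (by rw [Nat.card_zpowers, Nat.card_zpowers, S.orderOf_eq hc hc1, S.orderOf_eq ha ha1])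
              obtain ⟨k, hk⟩ := Subgroup.mem_zpowers_iff.1 (hz ▸ Subgroup.mem_zpowers a)
              rw [← hk]
              exact hcy.zpow_left k
            rw [hCa1 y hy this]; exact one_mem _
          · have h := hdich (x * c * x⁻¹) (by rw [conj_pow, S.expA c hc, mul_one, mul_inv_cancel])
              (mul_mem (mul_mem (hPV hx) (hAV hc)) (inv_mem (hPV hx)))
              (mul_mem (mul_mem (hPQ hx) (hAQ hc)) (inv_mem (hPQ hx)))
              (fun y hy v hv h1 h2 => by
                have := hcomQV c hc hc1 _ ((Subgroup.mem_normalizer_iff''.1 (hPQ hx) y).1 hy) _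
                  ((Subgroup.mem_normalizer_iff''.1 (hPV hx) v).1 hv)
                  (by simpa [MulAut.conj_apply, mul_assoc] using h1.map (MulAut.conj x⁻¹).toMonoidHom)
                  (by simpa [MulAut.conj_apply, mul_assoc] using h2.map (MulAut.conj x⁻¹).toMonoidHom)
                simpa [MulAut.conj_apply, mul_assoc] using this.map (MulAut.conj x).toMonoidHom)
            rcases h with h | h
            · exact h _ ((Subgroup.mem_normalizer_iff.1 (hPQ hx) y).1 hy) (hcy.map (MulAut.conj x).toMonoidHom)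
            · exact absurd h (hcon c hc hca)
        intro y hy
        have := hgen ((Subgroup.mem_normalizer_iff''.1 (hPQ hx) y).1 hy)
        simpa [MulAut.conj_apply, mul_assoc] using this
      have hnorm : Subgroup.zpowers a ≤ Subgroup.normalizer ((Subgroup.zpowers b : Subgroup Λ) : Set Λ) :=
        fun g hg => mem_normalizer_of_forall_commute fun y hy =>
          S.comm g (Subgroup.zpowers_le.2 ha hg) y (Subgroup.zpowers_le.2 hb hy)
      obtain ⟨g, hg, k, hk, rfl⟩ := exists_mul_of_mem_sup hnorm (show c ∈ Subgroup.zpowers a ⊔ Subgroup.zpowers b by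
        rw [S.sup_eq ha ha1 hb hba]; exact hc)
      obtain ⟨i, rfl⟩ := (IsOfFinOrder.mem_powers_iff_mem_zpowers (isOfFinOrder_of_finite a)).2 hg
      obtain ⟨j, rfl⟩ := (IsOfFinOrder.mem_powers_iff_mem_zpowers (isOfFinOrder_of_finite b)).2 hk
      have hj : ¬ p ∣ j := by
        rintro ⟨t, rfl⟩
        apply hca
        show a ^ i * b ^ (p * t) ∈ _
        rw [pow_mul, S.expA b hb, one_pow, mul_one]
        exact Subgroup.npow_mem_zpowers a i
      obtain ⟨k', hk'⟩ := Nat.exists_mul_mod_eq_one_of_coprime (S.hp.coprime_iff_not_dvd.2 hj).symm S.hp.one_lt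
      refine ⟨i * k', ?_⟩
      have h := pow_mem hcS k'
      have hab' : Commute a b := S.comm a ha b hb
      rw [conj_pow, (hab'.pow_pow i j).mul_pow, ← pow_mul, ← pow_mul, ← Nat.mod_add_div (j * k') p, hk'.2,
        pow_add, pow_mul b p, S.expA b hb, one_pow, mul_one, pow_one] at h
      have e : a ^ (i * k') * x = x * a ^ (i * k') := ((hPa x hx).pow_left _).eq
      rwa [← mul_assoc, ← e, mul_assoc (a ^ (i * k')) x b, mul_assoc] at h
    obtain ⟨i0, hi0⟩ := hclaim 1 (one_mem P)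
    rw [one_mul, inv_one, mul_one] at hi0
    apply hQW'
    have hPS : P ≤ St := by
      intro z hz
      obtain ⟨y, hy, hzy⟩ := exists_eq_commutator (hAP hb) (hbP b hb hba) hz
      obtain ⟨i, hi⟩ := hclaim y hy
      have h := mul_mem (inv_mem hi0) hi
      have hab' : Commute a b := S.comm a ha b hb
      have e1 : b⁻¹ * (a ^ i0)⁻¹ = (a ^ i0)⁻¹ * b⁻¹ := (((hab'.pow_left i0).inv_left).inv_right).eq.symm
      have e2 : b⁻¹ * a ^ i = a ^ i * b⁻¹ := ((hab'.pow_left i).inv_right).eq.symm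
      have e : (a ^ i0 * b)⁻¹ * (a ^ i * (y * b * y⁻¹)) = (a ^ i0)⁻¹ * a ^ i * z := by
        rw [mul_inv_rev, e1, hzy, mul_assoc _ b⁻¹, ← mul_assoc b⁻¹ (a ^ i), e2]
        simp only [mul_assoc]
      rw [e] at h
      have hgA : (a ^ i0)⁻¹ * a ^ i ∈ A := mul_mem (inv_mem (pow_mem ha _)) (pow_mem ha _)
      have hgz : Commute ((a ^ i0)⁻¹ * a ^ i) z :=
        (((hPa z hz).pow_left i0).inv_left).mul_left ((hPa z hz).pow_left i)
      have h2 := pow_mem h p
      rw [hgz.mul_pow, S.expA _ hgA, one_mul] at h2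
      obtain ⟨k, hk⟩ := exists_pow_eq_self_of_coprime (x := z) (n := p)
        (S.coprime_p.coprime_dvd_right ((Subgroup.orderOf_dvd_natCard _ hz).trans (Subgroup.card_dvd_of_le hPK)))
      exact hk ▸ pow_mem h2 k
    calc Q = ⁅Q, P⁆ := hQP.symm
      _ ≤ Subgroup.centralizer (W : Set Λ) := by
        rw [Subgroup.commutator_comm, Subgroup.commutator_le]
        intro x hx y hy
        exact ((hPS hx).2 y hy).2
  · -- nonabelian case
    set Z : Subgroup Λ := Q ⊓ Subgroup.centralizer (Q : Set Λ) with hZ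
    have hZcomm : ∀ z ∈ Z, ∀ y ∈ Q, Commute z y := fun z hz y hy =>
      (Subgroup.mem_centralizer_iff.1 hz.2 y hy).symm
    haveI : IsMulCommutative Z := ⟨⟨fun x y => Subtype.ext (hZcomm x x.2 y y.2.1).eq⟩⟩
    have hnormC : ∀ g ∈ Subgroup.normalizer (Q : Set Λ), g ∈ Subgroup.normalizer (Z : Set Λ) := fun g hg =>
      Subgroup.inf_normalizer_le_normalizer_inf ⟨hg, mem_normalizer_centralizer hg⟩
    have hZQ : Z ≠ Q := fun h => hab fun x hx y hy => hZcomm x (h.ge hx) y hy
    have hPZ : P ≤ Subgroup.centralizer (Z : Set Λ) :=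
      hmin Z inf_le_left (fun g hg => hnormC g (hAQ hg)) (fun g hg => hnormC g (hPQ hg)) hZQ
    have hQ1 : Nontrivial Q := by
      rw [Subgroup.nontrivial_iff_ne_bot]
      intro h
      exact hDQ (le_antisymm inf_le_left (by rw [h]; exact bot_le))
    haveI := hQq.center_nontrivial
    obtain ⟨z0, hz0⟩ := exists_ne (1 : Subgroup.center Q)
    have hz0' : ((z0 : Q) : Λ) ∈ Z := ⟨(z0 : Q).2, Subgroup.mem_centralizer_iff.2 fun y hy =>
      congrArg Subtype.val (Subgroup.mem_center_iff.1 z0.2 ⟨y, hy⟩)⟩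
    have hfull : ∀ c ∈ A, c ≠ 1 → (∀ z ∈ Z, Commute c z) ∨ ∀ x ∈ Q, Commute c x → x ∈ D := by
      intro c hc hc1
      by_cases hcZ : ∀ z ∈ Z, Commute c z
      · exact Or.inl hcZ
      refine Or.inr fun x hx hcx => ?_
      have hcN : c ∈ Subgroup.normalizer (Z : Set Λ) := hnormC c (hAQ hc)
      have hzN : Subgroup.zpowers c ≤ Subgroup.normalizer (Z : Set Λ) := Subgroup.zpowers_le.2 hcN
      have hzcop : (Nat.card (Subgroup.zpowers c)).Coprime (Nat.card Z) := by
        rw [Nat.card_zpowers, S.orderOf_eq hc hc1]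
        exact S.coprime_p.coprime_dvd_right (Subgroup.card_dvd_of_le (inf_le_left.trans hQK))
      set Y : Subgroup Λ := ⁅Z, Subgroup.zpowers c⁆ with hY
      have hYZ : Y ≤ Z := commutator_le_of_normalizer hzN
      have hYQ : Y ≤ Q := hYZ.trans inf_le_left
      have hfix : ∀ y ∈ Y, c * y = y * c → y = 1 := by
        intro y hy h
        have := centralizer_inf_commutator_eq_bot (A := Subgroup.zpowers c) (V := Z) hzN hzcop
        refine this.le ⟨⟨hYZ hy, ?_⟩, hy⟩
        refine Subgroup.mem_centralizer_iff.2 ?_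
        intro z hz
        obtain ⟨k, rfl⟩ := Subgroup.mem_zpowers_iff.1 hz
        exact (Commute.zpow_left h k).eq
      have hY1 : Y ≠ ⊥ := fun h => hcZ fun z hz => by
        rw [hY, Subgroup.commutator_eq_bot_iff_le_centralizer] at h
        exact (Subgroup.mem_centralizer_iff.1 (h hz) c (Subgroup.mem_zpowers c))
      set L : Subgroup Λ := Q ⊓ Subgroup.centralizer ((⁅V, Y⁆ : Subgroup Λ) : Set Λ) with hL
      have hxL : x ∈ L := ⟨hx, Subgroup.mem_centralizer_iff.2 fun w hw =>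
        (key S.hp (S.expA c hc) V Y (hYQ.trans hQV) (hAV hc)
          (mem_normalizer_commutator hcN (Subgroup.le_normalizer (Subgroup.mem_zpowers c))) hfix
          (copQV.coprime_dvd_left (Subgroup.card_dvd_of_le hYQ))
          (fun y hy => (hZcomm y (hYZ hy) x hx).symm)
          (fun v hv h => hcomQV c hc hc1 x hx v hv hcx h) w hw).eq.symm⟩
      have hLn : ∀ g ∈ Subgroup.normalizer (Q : Set Λ), g ∈ Subgroup.normalizer ((⁅V, Y⁆ : Subgroup Λ) : Set Λ) →
          g ∈ Subgroup.normalizer (L : Set Λ) := fun g hg hg' =>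
        Subgroup.inf_normalizer_le_normalizer_inf ⟨hg, mem_normalizer_centralizer hg'⟩
      have hAY : ∀ g ∈ A, g ∈ Subgroup.normalizer (Y : Set Λ) := fun g hg =>
        mem_normalizer_commutator (hnormC g (hAQ hg))
          (mem_normalizer_of_forall_commute fun y hy => S.comm g hg y (Subgroup.zpowers_le.2 hc hy))
      have hPY : ∀ g ∈ P, g ∈ Subgroup.normalizer (Y : Set Λ) := fun g hg =>
        mem_normalizer_of_forall_commute fun y hy =>
          (Subgroup.mem_centralizer_iff.1 (hPZ hg) y (hYZ hy)).symm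
      have hLQ : L ≠ Q := by
        intro h
        have h1 : Y ≤ Subgroup.centralizer ((⁅V, Y⁆ : Subgroup Λ) : Set Λ) := fun y hy => (h.ge (hYQ hy)).2
        have h2 : ⁅⁅V, Y⁆, Y⁆ = ⊥ := by
          rw [Subgroup.commutator_comm, Subgroup.commutator_eq_bot_iff_le_centralizer]; exact h1
        haveI := (hQq.to_le hYQ).isNilpotent
        rw [commutator_commutator_eq (hYQ.trans hQV) (copQV.coprime_dvd_left (Subgroup.card_dvd_of_le hYQ))
          (Or.inl inferInstance), Subgroup.commutator_eq_bot_iff_le_centralizer] at h2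
        exact hY1 (eq_bot_iff.2 fun y hy => Subgroup.mem_bot.2 (hfaith y (hYQ hy) fun v hv =>
          Subgroup.mem_centralizer_iff.1 (h2 hv) y hy))
      have hP := hmin L inf_le_left
        (fun g hg => hLn g (hAQ hg) (mem_normalizer_commutator (hAV hg) (hAY g hg)))
        (fun g hg => hLn g (hPQ hg) (mem_normalizer_commutator (hPV hg) (hPY g hg))) hLQ
      exact ⟨hx, Subgroup.le_centralizer_iff.1 hP hxL⟩
    by_cases hex : ∃ c ∈ A, c ∉ Subgroup.zpowers a ∧ ∀ z ∈ Z, Commute c z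
    · obtain ⟨e, he, hea, heZ⟩ := hex
      have he1 : e ≠ 1 := fun h => hea (h ▸ one_mem _)
      -- `Q' ≤ D`, so `D` is normal in `Q`
      have hQ'Q : ⁅Q, Q⁆ ≤ Q := Subgroup.commutator_le.2 fun x hx y hy =>
        mul_mem (mul_mem (mul_mem hx hy) (inv_mem hx)) (inv_mem hy)
      have hQ'ne : ⁅Q, Q⁆ ≠ Q := by
        intro h
        haveI : Group.IsSolvable Q := inferInstance
        have hlt := Group.IsSolvable.commutator_lt_top_of_nontrivial (G := Q)
        refine hlt.ne (Subgroup.map_injective Q.subtype_injective ?_)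
        rw [commutator_def, Subgroup.map_commutator, ← MonoidHom.range_eq_map, Subgroup.range_subtype, h]
      have hQ'D : ⁅Q, Q⁆ ≤ D := le_inf hQ'Q (Subgroup.le_centralizer_iff.1 (hmin _ hQ'Q
        (fun g hg => mem_normalizer_commutator (hAQ hg) (hAQ hg))
        (fun g hg => mem_normalizer_commutator (hPQ hg) (hPQ hg)) hQ'ne))
      have hDn : ∀ x ∈ Q, ∀ d ∈ D, x * d * x⁻¹ ∈ D := fun x hx d hd => by
        have h1 : x * d * x⁻¹ * d⁻¹ ∈ D := hQ'D (by
          rw [← commutatorElement_def]; exact Subgroup.commutator_mem_commutator hx hd.1)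
        simpa using mul_mem h1 hd
      let M : Subgroup Λ :=
        { carrier := {x | x ∈ Q ∧ e * x * e⁻¹ * x⁻¹ ∈ D}
          one_mem' := ⟨one_mem Q, by simp⟩
          mul_mem' := fun {x y} hx hy => ⟨mul_mem hx.1 hy.1, by
            have := mul_mem hx.2 (hDn x hx.1 _ hy.2)
            rwa [show e * x * e⁻¹ * x⁻¹ * (x * (e * y * e⁻¹ * y⁻¹) * x⁻¹) = e * (x * y) * e⁻¹ * (x * y)⁻¹ by
              group] at this⟩
          inv_mem' := fun {x} hx => ⟨inv_mem hx.1, by
            have := hDn x⁻¹ (inv_mem hx.1) _ (inv_mem hx.2)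
            rwa [show x⁻¹ * (e * x * e⁻¹ * x⁻¹)⁻¹ * x⁻¹⁻¹ = e * x⁻¹ * e⁻¹ * x⁻¹⁻¹ by group] at this⟩ }
      have hQM : Q ≤ M := by
        refine S.gen hQK hAQ fun c hc hc1 x hx hcx => ⟨hx, ?_⟩
        by_cases hce : Commute e x
        · rw [hce.eq, mul_inv_cancel_right, mul_inv_cancel]; exact one_mem _
        · have hxD : x ∈ D := by
            rcases hfull c hc hc1 with h | h
            · exfalso
              have hce' : c ∈ Subgroup.zpowers e := by
                by_contra hn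
                exact hz0 (Subtype.ext (Subtype.ext (S.fix_pair he he1 hc hn (hQK hz0'.1)
                  (heZ _ hz0') (h _ hz0'))))
              have hz : Subgroup.zpowers c = Subgroup.zpowers e :=
                Subgroup.eq_of_le_of_card_ge (Subgroup.zpowers_le.2 hce')
                  (by rw [Nat.card_zpowers, Nat.card_zpowers, S.orderOf_eq hc hc1, S.orderOf_eq he he1])
              obtain ⟨k, hk⟩ := Subgroup.mem_zpowers_iff.1 (hz ▸ Subgroup.mem_zpowers e)
              exact hce (hk ▸ hcx.zpow_left k)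
            · exact h x hx hcx
          exact mul_mem ((Subgroup.mem_normalizer_iff.1 (hAD he) x).1 hxD) (inv_mem hxD)
      have heS : e ∈ stab Q D := ⟨hAQ he, fun x hx => (hQM hx).2⟩
      have hPS : P ≤ stab Q D := by
        intro z hz
        obtain ⟨y, hy, rfl⟩ := exists_eq_commutator (hAP he) (hbP e he hea) hz
        refine mul_mem (inv_mem heS) ⟨mul_mem (mul_mem (hPQ hy) (hAQ he)) (inv_mem (hPQ hy)), fun x hx => ?_⟩
        have h1 := heS.2 _ ((Subgroup.mem_normalizer_iff''.1 (hPQ hy) x).1 hx)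
        have h2 : ∀ d ∈ D, y * d * y⁻¹ = d := fun d hd => by
          rw [Subgroup.mem_centralizer_iff.1 hd.2 y hy, mul_inv_cancel_right]
        rw [← h2 _ h1] at h1
        rwa [show y * (e * (y⁻¹ * x * y) * e⁻¹ * (y⁻¹ * x * y)⁻¹) * y⁻¹
          = y * e * y⁻¹ * x * (y * e * y⁻¹)⁻¹ * x⁻¹ by group] at h1
      apply hDQ
      refine le_antisymm inf_le_left ?_
      calc Q = ⁅Q, P⁆ := hQP.symm
        _ ≤ D := by
          rw [Subgroup.commutator_comm, Subgroup.commutator_le]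
          intro x hx y hy
          exact (hPS hx).2 y hy
    · push_neg at hex
      apply hDQ
      refine le_antisymm inf_le_left (S.gen hQK hAQ fun c hc hc1 x hx hcx => ?_)
      by_cases hca : c ∈ Subgroup.zpowers a
      · have hz : Subgroup.zpowers c = Subgroup.zpowers a :=
          Subgroup.eq_of_le_of_card_ge (Subgroup.zpowers_le.2 hca)
            (by rw [Nat.card_zpowers, Nat.card_zpowers, S.orderOf_eq hc hc1, S.orderOf_eq ha ha1])
        obtain ⟨k, hk⟩ := Subgroup.mem_zpowers_iff.1 (hz ▸ Subgroup.mem_zpowers a)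
        exact hCa x hx (hk ▸ hcx.zpow_left k)
      · rcases hfull c hc hc1 with h | h
        · obtain ⟨z, hz, hnc⟩ := hex c hc hca
          exact absurd (h z hz) hnc
        · exact h x hx hcx

/-- An invariant `s`-subgroup centralises an invariant `q`-subgroup it normalises, if the latter is
faithful on `V`. -/
theorem core (S : Setup p A K) (hq : q.Prime) (hr : r.Prime) (hs : s.Prime) (hqr : q ≠ r) (hsq : s ≠ q)
    (V P Q : Subgroup Λ) [IsMulCommutative V]
    (hVK : V ≤ K) (hQK : Q ≤ K) (hPK : P ≤ K) (hVr : IsPGroup r V) (hQq : IsPGroup q Q) (hPs : IsPGroup s P)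
    (hAV : A ≤ Subgroup.normalizer (V : Set Λ)) (hPV : P ≤ Subgroup.normalizer (V : Set Λ))
    (hQV : Q ≤ Subgroup.normalizer (V : Set Λ))
    (hAP : A ≤ Subgroup.normalizer (P : Set Λ)) (hAQ : A ≤ Subgroup.normalizer (Q : Set Λ))
    (hPQ : P ≤ Subgroup.normalizer (Q : Set Λ))
    (hfaith : ∀ x ∈ Q, (∀ v ∈ V, Commute x v) → x = 1) : P ≤ Subgroup.centralizer (Q : Set Λ) := by
  by_contra hne
  obtain ⟨P1, ⟨hP1, hAP1, hne1⟩, hP1min⟩ := Set.Finite.exists_minimal
    (s := {L : Subgroup Λ | L ≤ P ∧ A ≤ Subgroup.normalizer (L : Set Λ) ∧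
      ¬ L ≤ Subgroup.centralizer (Q : Set Λ)}) (Set.toFinite _) ⟨P, le_rfl, hAP, hne⟩
  obtain ⟨a, ha, ha1, hPa⟩ : ∃ a ∈ A, a ≠ 1 ∧ ∀ x ∈ P1, Commute a x := by
    by_contra hcon
    push_neg at hcon
    apply hne1
    refine S.gen (hP1.trans hPK) hAP1 fun c hc hc1 x hx hcx => ?_
    by_contra hxQ
    obtain ⟨y, hy, hcy⟩ := hcon c hc hc1
    have hle : (P1 ⊓ Subgroup.centralizer ({c} : Set Λ) : Subgroup Λ) ≤ P1 := inf_le_left
    have := hP1min ⟨hle.trans hP1, fun g hg => Subgroup.inf_normalizer_le_normalizer_inf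
      ⟨hAP1 hg, Subgroup.le_normalizer (Subgroup.mem_centralizer_singleton_iff.2 (S.comm g hg c hc).eq)⟩,
      fun h => hxQ (h ⟨hx, Subgroup.mem_centralizer_singleton_iff.2 hcx.eq.symm⟩)⟩ hle hy
    exact hcy (Subgroup.mem_centralizer_singleton_iff.1 this.2).symm
  obtain ⟨Q1, ⟨hQ1, hAQ1, hPQ1, hne2⟩, hQ1min⟩ := Set.Finite.exists_minimal
    (s := {L : Subgroup Λ | L ≤ Q ∧ A ≤ Subgroup.normalizer (L : Set Λ) ∧
      P1 ≤ Subgroup.normalizer (L : Set Λ) ∧ ¬ P1 ≤ Subgroup.centralizer (L : Set Λ)}) (Set.toFinite _)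
    ⟨Q, le_rfl, hAQ, hP1.trans hPQ, hne1⟩
  exact core_minimal S hq hr hs hqr hsq V P1 Q1 hVK (hQ1.trans hQK) (hP1.trans hPK) hVr (hQq.to_le hQ1)
    (hPs.to_le hP1) hAV (hP1.trans hPV) (hQ1.trans hQV) hAP1 hAQ1 hPQ1 (fun x hx => hfaith x (hQ1 hx)) ha ha1 hPa
    (fun L hL hAL hPL hLne => by
      by_contra h
      exact hLne (le_antisymm hL (hQ1min ⟨hL.trans hQ1, hAL, hPL, h⟩ hL))) hne2

end Core

end CfsgLib.FpfRankTwo
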