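import Mathlib
import Cfsg.Agent.FpfRankTwo.Core
import Cfsg.Agent.ZJ.Complement

/-!
A solvable group with a fixed-point-free action of an elementary abelian group of order `p^2` has a nilpotent
term of the lower central series.
-/

set_option autoImplicit false

namespace CfsgLib.FpfRankTwo

open scoped commutatorElement
open CfsgLib.CoprimeAction

universe u v

theorem lcs_top_map {G H : Type*} [Group G] [Group H] (f : G →* H) (hf : Function.Surjective f) (n : ℕ) :
    ((⊤ : Subgroup G).lowerCentralSeries n).map f = (⊤ : Subgroup H).lowerCentralSeries n := by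
  rw [Subgroup.map_lowerCentralSeries, Subgroup.map_top_of_surjective _ hf]

theorem isNilpotent_mono {G : Type*} [Group G] {H K : Subgroup G} (h : H ≤ K) [Group.IsNilpotent K] :
    Group.IsNilpotent H :=
  CfsgLib.Hall.isNilpotent_of_le h

/-- If the Sylow `q`-part `Q` of the stabilised term `R` of the lower central series is centralised by a
subgroup of `q`-power index, then it is trivial. -/
theorem eq_bot_of_lcs {G : Type*} [Group G] [Finite G] {q : ℕ} (hq : q.Prime) (R Q : Subgroup G) [R.Normal]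
    [Q.Normal] [Group.IsNilpotent R] (hR : ⁅R, (⊤ : Subgroup G)⁆ = R) (hQR : Q ≤ R) (hQ : IsPGroup q Q)
    (hidx : ¬ q ∣ Q.relIndex R) (hC : ∃ n, (Subgroup.centralizer (Q : Set G)).index = q ^ n) : Q = ⊥ := by
  classical
  haveI := Fact.mk hq
  obtain ⟨P, N, hN, hNP⟩ := CfsgLib.ZJ.hasNormalPComplement_of_isNilpotent (G := R) q
  have hNcop : ¬ q ∣ Nat.card N := by
    rw [← hNP.index_eq_card]
    exact P.not_dvd_index
  have hNidx : N.index = Nat.card (P : Subgroup R) := hNP.symm.index_eq_card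
  have hmemN : ∀ x : R, ¬ q ∣ orderOf x → x ∈ N := by
    intro x hx
    rw [← QuotientGroup.eq_one_iff]
    obtain ⟨k, hk⟩ := P.2.exists_card_eq
    have h1 : orderOf (x : R ⧸ N) ∣ q ^ k := by
      rw [← hk, ← hNidx, Subgroup.index]; exact orderOf_dvd_natCard _
    have h2 : orderOf (x : R ⧸ N) ∣ orderOf x := orderOf_map_dvd (QuotientGroup.mk' N) x
    exact orderOf_eq_one_iff.1 (Nat.eq_one_of_dvd_coprimes
      (Nat.Coprime.pow_left k (hq.coprime_iff_not_dvd.2 hx)) h1 h2)
  set L : Subgroup G := N.map R.subtype with hL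
  haveI hLn : L.Normal := by
    refine ⟨?_⟩
    rintro _ ⟨x, hx, rfl⟩ g
    refine ⟨⟨g * (x : G) * g⁻¹, (inferInstance : R.Normal).conj_mem _ x.2 g⟩, hmemN _ ?_, rfl⟩
    intro hd
    apply hNcop
    refine hd.trans ?_
    rw [show orderOf (⟨g * (x : G) * g⁻¹, (inferInstance : R.Normal).conj_mem _ x.2 g⟩ : R) = orderOf x by
      rw [← Subgroup.orderOf_coe, ← Subgroup.orderOf_coe]
      exact MulEquiv.orderOf_eq (MulAut.conj g) (x : G)]
    exact Subgroup.orderOf_dvd_natCard N hx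
  have hcopQL : Q ⊓ L = ⊥ := by
    refine Subgroup.inf_eq_bot_of_coprime ?_
    obtain ⟨k, hk⟩ := hQ.exists_card_eq
    rw [hk, hL, Subgroup.card_map_of_injective R.subtype_injective]
    exact Nat.Coprime.pow_left k (hq.coprime_iff_not_dvd.2 hNcop)
  -- `R = Q L`
  have hQL : R ≤ Q ⊔ L := by
    intro x hx
    have hQ' : Q.subgroupOf R ⊔ N = ⊤ := by
      rw [← Subgroup.index_eq_one]
      refine Nat.eq_one_of_dvd_coprimes (a := (Q.subgroupOf R).index) (b := N.index) ?_
        (Subgroup.index_dvd_of_le le_sup_left) (Subgroup.index_dvd_of_le le_sup_right)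
      obtain ⟨k, hk⟩ := P.2.exists_card_eq
      rw [hNidx, hk]
      exact (Nat.Coprime.pow_left k (hq.coprime_iff_not_dvd.2 hidx)).symm
    have : (⟨x, hx⟩ : R) ∈ Q.subgroupOf R ⊔ N := hQ' ▸ Subgroup.mem_top _
    have h := Subgroup.mem_map_of_mem R.subtype this
    rw [Subgroup.map_sup, Subgroup.subgroupOf_map_subtype, inf_eq_left.2 hQR] at h
    exact h
  set D : Subgroup G := ⁅Q, (⊤ : Subgroup G)⁆ with hD
  have hDQ : D ≤ Q := Subgroup.commutator_le_left Q ⊤
  have hDL : R ≤ D ⊔ L := by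
    rw [← hR, Subgroup.commutator_le]
    intro x hx g hg
    obtain ⟨a, ha, l, hl, rfl⟩ := Subgroup.mem_sup_of_normal_right.1 (hQL hx)
    rw [commutatorElement_def, show a * l * g * (a * l)⁻¹ * g⁻¹ =
      a * (l * (g * l⁻¹ * g⁻¹)) * a⁻¹ * (a * g * a⁻¹ * g⁻¹) by group]
    exact mul_mem (Subgroup.mem_sup_right (hLn.conj_mem _ (mul_mem hl (hLn.conj_mem _ (inv_mem hl) g)) a))
      (Subgroup.mem_sup_left (Subgroup.commutator_mem_commutator ha hg))
  have hQD : Q ≤ D := by
    intro x hx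
    obtain ⟨d, hd, l, hl, rfl⟩ := Subgroup.mem_sup_of_normal_right.1 (hDL (hQR hx))
    have : l ∈ Q ⊓ L := ⟨by simpa using mul_mem (inv_mem (hDQ hd)) hx, hl⟩
    rw [hcopQL, Subgroup.mem_bot] at this
    rwa [this, mul_one]
  -- semidirect product
  let ψ : G →* MulAut Q := MulAut.conjNormal
  let E := Q ⋊[ψ.range.subtype] ψ.range
  obtain ⟨n, hn⟩ := hC
  obtain ⟨k, hk⟩ := hQ.exists_card_eq
  have hker : Subgroup.centralizer (Q : Set G) ≤ ψ.ker := fun g hg => by
    rw [MonoidHom.mem_ker]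
    refine MulEquiv.ext fun x => Subtype.ext ?_
    show g * (x : G) * g⁻¹ = x
    rw [← Subgroup.mem_centralizer_iff.1 hg x x.2, mul_inv_cancel_right]
  obtain ⟨j, -, hj⟩ := (Nat.dvd_prime_pow hq).1 (hn ▸ Subgroup.index_dvd_of_le hker)
  have hE : IsPGroup q E := IsPGroup.of_card (n := k + j) (by
    rw [SemidirectProduct.card, hk, ← Subgroup.index_ker, hj, pow_add])
  haveI : Group.IsNilpotent E := hE.isNilpotent
  obtain ⟨m, hm⟩ := Subgroup.nilpotent_iff_lowerCentralSeries.1 (inferInstance : Group.IsNilpotent E)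
  have hall : ∀ i : ℕ, ∀ x : Q, (SemidirectProduct.inl x : E) ∈ (⊤ : Subgroup E).lowerCentralSeries i := by
    intro i
    induction i with
    | zero => intro x; exact Subgroup.mem_top _
    | succ i ih =>
      have hle : D ≤ (((⊤ : Subgroup E).lowerCentralSeries (i + 1)).comap
          (SemidirectProduct.inl : Q →* E)).map Q.subtype := by
        rw [hD, Subgroup.commutator_le]
        intro a ha g _
        refine ⟨⟨a, ha⟩ * ψ g ⟨a, ha⟩⁻¹, ?_, ?_⟩
        · rw [SetLike.mem_coe, Subgroup.mem_comap, map_mul, Subgroup.lowerCentralSeries_succ]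
          have e : (SemidirectProduct.inl (ψ g ⟨a, ha⟩⁻¹) : E) =
              SemidirectProduct.inr ⟨ψ g, g, rfl⟩ * (SemidirectProduct.inl ⟨a, ha⟩ : E)⁻¹ *
                (SemidirectProduct.inr ⟨ψ g, g, rfl⟩)⁻¹ := by
            rw [← map_inv, inr_mul_inl]; rfl
          rw [e, ← mul_assoc, ← mul_assoc, ← commutatorElement_def]
          exact Subgroup.commutator_mem_commutator (ih _) (Subgroup.mem_top _)
        · show a * (g * a⁻¹ * g⁻¹) = ⁅a, g⁆
          rw [commutatorElement_def]; group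
      intro x
      obtain ⟨y, hy, he⟩ := hle (hQD x.2)
      rw [← Subtype.ext (show (y : G) = x from he)]
      exact hy
  rw [eq_bot_iff]
  intro x hx
  have h := hall m ⟨x, hx⟩
  rw [hm, Subgroup.mem_bot] at h
  have h' : (⟨x, hx⟩ : Q) = 1 := SemidirectProduct.inl_injective (by rw [h, map_one])
  exact Subgroup.mem_bot.2 (congrArg Subtype.val h')

variable {A : Type v} [Group A] [Finite A]

/-- The action induced on an invariant subgroup. -/
def restrictAct {G : Type u} [Group G] (φ : A →* MulAut G) (M : Subgroup G) (hM : ∀ a, ∀ x ∈ M, φ a x ∈ M) :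
    A →* MulAut M where
  toFun a :=
    { toFun := fun x => ⟨φ a x, hM a x x.2⟩
      invFun := fun x => ⟨φ a⁻¹ x, hM _ x x.2⟩
      left_inv := fun x => Subtype.ext (by
        show φ a⁻¹ (φ a (x : G)) = x
        rw [← MulAut.mul_apply, ← map_mul, inv_mul_cancel, map_one]; rfl)
      right_inv := fun x => Subtype.ext (by
        show φ a (φ a⁻¹ (x : G)) = x
        rw [← MulAut.mul_apply, ← map_mul, mul_inv_cancel, map_one]; rfl)
      map_mul' := fun x y => Subtype.ext (map_mul (φ a) (x : G) y) }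
  map_one' := MulEquiv.ext fun x => Subtype.ext (by show φ 1 (x : G) = x; rw [map_one]; rfl)
  map_mul' a b := MulEquiv.ext fun x => Subtype.ext (by
    show φ (a * b) (x : G) = φ a (φ b (x : G)); rw [map_mul]; rfl)

theorem exists_invariant_sylow_le {G : Type u} [Group G] [Finite G] (φ : A →* MulAut G) (M : Subgroup G)
    (hM : ∀ a, ∀ x ∈ M, φ a x ∈ M) (hcop : (Nat.card A).Coprime (Nat.card G)) (hA : Group.IsSolvable A)
    (q : ℕ) [Fact q.Prime] :
    ∃ Q : Sylow q M, ∀ a, ∀ x ∈ (Q : Subgroup M).map M.subtype, φ a x ∈ (Q : Subgroup M).map M.subtype := by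
  obtain ⟨Q, -, hQ⟩ := exists_fixed_sylow_ge (restrictAct φ M hM)
    (hcop.coprime_dvd_right (Subgroup.card_subgroup_dvd_card M)) (Or.inl hA) (p := q) (U := ⊥)
    IsPGroup.of_bot (fun a u hu => by rw [Subgroup.mem_bot.1 hu, map_one]; exact one_mem _)
  refine ⟨Q, fun a x hx => ?_⟩
  obtain ⟨y, hy, rfl⟩ := hx
  exact ⟨restrictAct φ M hM a y, (hQ a).le ⟨y, hy, rfl⟩, rfl⟩

theorem map_eq_of_invariant {G : Type u} [Group G] [Finite G] (φ : A →* MulAut G) (L : Subgroup G)
    (hL : ∀ a, ∀ x ∈ L, φ a x ∈ L) (a : A) : L.map (φ a).toMonoidHom = L := by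
  refine Subgroup.eq_of_le_of_card_ge (by rintro _ ⟨x, hx, rfl⟩; exact hL a x hx) ?_
  rw [Subgroup.card_map_of_injective (f := (φ a).toMonoidHom) (φ a).injective]

theorem exists_isNilpotent_lcs (p : ℕ) (hp : p.Prime) (n : ℕ) :
    ∀ (G : Type u) [Group G] [Finite G], Nat.card G = n → Group.IsSolvable G →
    ∀ (φ : A →* MulAut G), (∀ a b : A, a * b = b * a) → (∀ a : A, a ^ p = 1) → Nat.card A = p ^ 2 →
      (∀ g : G, (∀ a : A, φ a g = g) → g = 1) →
      ∃ k, Group.IsNilpotent ↥((⊤ : Subgroup G).lowerCentralSeries k) := by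
  induction n using Nat.strong_induction_on with
  | _ n ih =>
  intro G _ _ hn hG φ hcomm hexp hcard hfpf
  classical
  subst hn
  haveI := Fact.mk hp
  have hAsol : Group.IsSolvable A := by
    letI : CommGroup A := { (inferInstance : Group A) with mul_comm := hcomm }
    infer_instance
  have hcop : (Nat.card A).Coprime (Nat.card G) := by
    rw [hcard]
    refine (hp.coprime_iff_not_dvd.2 fun hd => ?_).pow_left 2
    letI : MulAction A G := MulAction.compHom G φ
    have h := (IsPGroup.of_card (n := 2) hcard).card_modEq_card_fixedPoints G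
    have h1 : Nat.card (MulAction.fixedPoints A G) = 1 := by
      rw [Nat.card_eq_one_iff_unique]
      exact ⟨⟨fun x y => Subtype.ext ((hfpf _ x.2).trans (hfpf _ y.2).symm)⟩, ⟨1, fun a => map_one (φ a)⟩⟩
    rw [h1] at h
    have h2 := Nat.modEq_zero_iff_dvd.1 ((h.symm.trans (Nat.modEq_zero_iff_dvd.2 hd)))
    exact hp.one_lt.ne' (Nat.dvd_one.1 h2)
  by_cases htriv : (⊤ : Subgroup G) = ⊥
  · exact ⟨0, by rw [Subgroup.lowerCentralSeries_zero, htriv]; infer_instance⟩
  -- quotients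
  have hquot : ∀ (L : Subgroup G) [L.Normal], (∀ a, ∀ x ∈ L, φ a x ∈ L) → L ≠ ⊥ →
      ∃ k, Group.IsNilpotent ↥((⊤ : Subgroup (G ⧸ L)).lowerCentralSeries k) := by
    intro L _ hL hL1
    let φL : A →* MulAut (G ⧸ L) :=
      { toFun := fun a => QuotientGroup.congr L L (φ a) (map_eq_of_invariant φ L hL a)
        map_one' := MulEquiv.ext fun x => by
          obtain ⟨g, rfl⟩ := QuotientGroup.mk_surjective x
          show ((φ 1 g : G) : G ⧸ L) = (g : G ⧸ L)
          rw [map_one]; rfl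
        map_mul' := fun a b => MulEquiv.ext fun x => by
          obtain ⟨g, rfl⟩ := QuotientGroup.mk_surjective x
          show ((φ (a * b) g : G) : G ⧸ L) = ((φ a (φ b g) : G) : G ⧸ L)
          rw [map_mul]; rfl }
    have hlt : Nat.card (G ⧸ L) < Nat.card G := by
      rw [Subgroup.card_eq_card_quotient_mul_card_subgroup L]
      exact lt_mul_of_one_lt_right Nat.card_pos ((Subgroup.one_lt_card_iff_ne_bot L).2 hL1)
    refine ih _ hlt (G ⧸ L) rfl inferInstance φL hcomm hexp hcard fun x hx => ?_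
    obtain ⟨g, rfl⟩ := QuotientGroup.mk_surjective x
    obtain ⟨m, hm, hfix⟩ := exists_fixed_of_coset φ hL (hcop.coprime_dvd_right (Subgroup.card_subgroup_dvd_card L))
      (Or.inl hAsol) (k := g) fun a => by
        have h : ((φ a g : G) : G ⧸ L) = (g : G ⧸ L) := hx a
        rw [QuotientGroup.eq] at h
        have := (inferInstance : L.Normal).conj_mem _ (inv_mem h) g
        simpa [mul_assoc] using this
    have hmg := hfpf _ hfix
    rw [mul_eq_one_iff_eq_inv] at hmg
    exact (QuotientGroup.eq_one_iff g).2 (inv_mem_iff.1 (hmg ▸ hm))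
  obtain ⟨N, ⟨hNn, hNi, hN1⟩, hmin⟩ := Set.Finite.exists_minimal
    (s := {N : Subgroup G | N.Normal ∧ (∀ a, ∀ x ∈ N, φ a x ∈ N) ∧ N ≠ ⊥}) (Set.toFinite _)
    ⟨⊤, inferInstance, fun a x _ => Subgroup.mem_top _, htriv⟩
  haveI := hNn
  have hmin' : ∀ M : Subgroup G, M.Normal → (∀ a, ∀ x ∈ M, φ a x ∈ M) → M ≤ N → M = ⊥ ∨ M = N :=
    fun M h1 h2 h3 => by
      rcases eq_or_ne M ⊥ with e | e
      · exact Or.inl e
      · exact Or.inr (le_antisymm h3 (hmin ⟨h1, h2, e⟩ h3))
  obtain ⟨k, hk⟩ := hquot N hNi hN1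
  by_cases hsecond : ∃ L : Subgroup G, L.Normal ∧ (∀ a, ∀ x ∈ L, φ a x ∈ L) ∧ L ≠ ⊥ ∧ N ⊓ L = ⊥
  · obtain ⟨L, hLn, hLi, hL1, hNL⟩ := hsecond
    haveI := hLn
    obtain ⟨k2, hk2⟩ := hquot L hLi hL1
    haveI h1 : Group.IsNilpotent ↥((⊤ : Subgroup (G ⧸ N)).lowerCentralSeries (max k k2)) :=
      haveI := hk; isNilpotent_mono ((Subgroup.lowerCentralSeries_antitone (S := (⊤ : Subgroup _))) (le_max_left k k2))
    haveI h2 : Group.IsNilpotent ↥((⊤ : Subgroup (G ⧸ L)).lowerCentralSeries (max k k2)) :=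
      haveI := hk2; isNilpotent_mono ((Subgroup.lowerCentralSeries_antitone (S := (⊤ : Subgroup _))) (le_max_right k k2))
    refine ⟨max k k2, ?_⟩
    set R := (⊤ : Subgroup G).lowerCentralSeries (max k k2) with hR
    let f1 : R →* (⊤ : Subgroup (G ⧸ N)).lowerCentralSeries (max k k2) :=
      ((QuotientGroup.mk' N).comp R.subtype).codRestrict _ fun x =>
        (lcs_top_map (QuotientGroup.mk' N) (QuotientGroup.mk'_surjective N) _).le ⟨x, x.2, rfl⟩
    let f2 : R →* (⊤ : Subgroup (G ⧸ L)).lowerCentralSeries (max k k2) :=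
      ((QuotientGroup.mk' L).comp R.subtype).codRestrict _ fun x =>
        (lcs_top_map (QuotientGroup.mk' L) (QuotientGroup.mk'_surjective L) _).le ⟨x, x.2, rfl⟩
    refine Subgroup.isNilpotent_of_ker_le_center (f1.prod f2) fun x hx => ?_
    rw [MonoidHom.mem_ker] at hx
    have h1' : (x : G) ∈ N := (QuotientGroup.eq_one_iff _).1 (congrArg Subtype.val (congrArg Prod.fst hx))
    have h2' : (x : G) ∈ L := (QuotientGroup.eq_one_iff _).1 (congrArg Subtype.val (congrArg Prod.snd hx))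
    have : (x : G) = 1 := Subgroup.mem_bot.1 (hNL ▸ ⟨h1', h2'⟩)
    rw [show x = 1 from Subtype.ext this]
    exact one_mem _
  push_neg at hsecond
  have huniq : ∀ L : Subgroup G, L.Normal → (∀ a, ∀ x ∈ L, φ a x ∈ L) → L ≠ ⊥ → N ≤ L := by
    intro L hLn hLi hL1
    haveI := hLn
    rcases hmin' (N ⊓ L) inferInstance (fun a x hx => ⟨hNi a x hx.1, hLi a x hx.2⟩) inf_le_left with h | h
    · exact absurd h (hsecond L hLn hLi hL1)
    · exact inf_eq_left.1 h
  -- `N` is an abelian `r`-group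
  have hNsol : Group.IsSolvable N := inferInstance
  have hNab : ∀ x ∈ N, ∀ y ∈ N, x * y = y * x := by
    rcases hmin' ⁅N, N⁆ inferInstance (fun a x hx => by
      have : (⁅N, N⁆ : Subgroup G).map (φ a).toMonoidHom ≤ ⁅N, N⁆ := by
        rw [Subgroup.map_commutator, map_eq_of_invariant φ N hNi a]
      exact this ⟨x, hx, rfl⟩) (Subgroup.commutator_le_left N N) with h | h
    · intro x hx y hy
      exact (Subgroup.mem_centralizer_iff.1 (Subgroup.commutator_eq_bot_iff_le_centralizer.1 h hx) y hy).symm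
    · exfalso
      haveI : Nontrivial N := (Subgroup.nontrivial_iff_ne_bot N).2 hN1
      have hlt := Group.IsSolvable.commutator_lt_top_of_nontrivial (G := N)
      refine hlt.ne (Subgroup.map_injective N.subtype_injective ?_)
      rw [commutator_def, Subgroup.map_commutator, ← MonoidHom.range_eq_map, Subgroup.range_subtype, h]
  obtain ⟨r, hr, hrd⟩ := Nat.exists_prime_and_dvd (fun e => hN1 (Subgroup.eq_bot_of_card_eq N e))
  haveI := Fact.mk hr
  have hNexp : ∀ x ∈ N, x ^ r = 1 := by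
    let M : Subgroup G :=
      { carrier := {x | x ∈ N ∧ x ^ r = 1}
        one_mem' := ⟨one_mem N, one_pow r⟩
        mul_mem' := fun {a b} ha hb => ⟨mul_mem ha.1 hb.1, by
          rw [Commute.mul_pow (hNab a ha.1 b hb.1), ha.2, hb.2, mul_one]⟩
        inv_mem' := fun {a} ha => ⟨inv_mem ha.1, by rw [inv_pow, ha.2, inv_one]⟩ }
    rcases hmin' M ⟨fun a ha g => ⟨hNn.conj_mem a ha.1 g, by rw [conj_pow, ha.2, mul_one, mul_inv_cancel]⟩⟩
      (fun a x hx => ⟨hNi a x hx.1, by rw [← map_pow, hx.2, map_one]⟩) (fun x hx => hx.1) with h | h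
    · exfalso
      obtain ⟨x, hx⟩ := exists_prime_orderOf_dvd_card' (G := N) r hrd
      have hmem : (x : G) ∈ M := ⟨x.2, by rw [← SubgroupClass.coe_pow, ← hx, pow_orderOf_eq_one]; rfl⟩
      rw [h, Subgroup.mem_bot] at hmem
      exact hr.ne_one (by rw [← hx, orderOf_eq_one_iff]; exact Subtype.ext hmem)
    · intro x hx
      exact (h ▸ hx : x ∈ M).2
  have hNr : IsPGroup r N := fun x => ⟨1, Subtype.ext (by simpa using hNexp x x.2)⟩
  -- stabilised term
  have hex : ∃ c : ℕ, ∃ m ≥ k, Nat.card ↥((⊤ : Subgroup G).lowerCentralSeries m) = c := ⟨_, k, le_rfl, rfl⟩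
  obtain ⟨m, hmk, hmc⟩ := Nat.find_spec hex
  set R := (⊤ : Subgroup G).lowerCentralSeries m with hR
  have hstab : ⁅R, (⊤ : Subgroup G)⁆ = R := by
    refine Subgroup.eq_of_le_of_card_ge ((Subgroup.lowerCentralSeries_antitone (S := (⊤ : Subgroup _))) (Nat.le_succ m)) ?_
    rw [hmc]
    exact Nat.find_min' hex ⟨m + 1, by omega, rfl⟩
  let mk := QuotientGroup.mk' N
  have hmks : Function.Surjective mk := QuotientGroup.mk'_surjective N
  set R' := R.map mk with hR'
  have hR'e : R' = (⊤ : Subgroup (G ⧸ N)).lowerCentralSeries m := lcs_top_map mk hmks m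
  haveI hR'n : Group.IsNilpotent R' := by
    haveI := hk
    exact isNilpotent_mono (hR'e.le.trans (Subgroup.lowerCentralSeries_antitone (S := (⊤ : Subgroup _)) hmk))
  haveI : R'.Normal := Subgroup.Normal.map inferInstance mk hmks
  have hstab' : ⁅R', (⊤ : Subgroup (G ⧸ N))⁆ = R' := by
    rw [hR', ← Subgroup.map_top_of_surjective mk hmks, ← Subgroup.map_commutator, hstab]
  refine ⟨m, ?_⟩
  suffices hq : ∀ q : ℕ, q.Prime → q ∣ Nat.card R' → q = r by
    have hR'r : IsPGroup r R' := by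
      refine IsPGroup.of_card (n := (Nat.card R').factorization r) ?_
      exact Nat.eq_prime_pow_of_unique_prime_dvd Nat.card_pos.ne' (fun {d} hd hdd => hq d hd hdd) ▸
        by rw [Nat.eq_prime_pow_of_unique_prime_dvd Nat.card_pos.ne' (fun {d} hd hdd => hq d hd hdd),
          Nat.Prime.factorization_pow hr, Finsupp.single_eq_same]
    exact ((hR'r.comap_of_ker_isPGroup mk (by rw [QuotientGroup.ker_mk']; exact hNr)).to_le
      (Subgroup.le_comap_map mk R)).isNilpotent
  intro q hq hqd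
  by_contra hqr
  haveI := Fact.mk hq
  -- the Sylow `q`-subgroup of `R'`
  obtain ⟨T⟩ := (inferInstance : Nonempty (Sylow q R'))
  have hTn : (T : Subgroup R').Normal :=
    ((Group.isNilpotent_of_finite_tfae (G := R')).out 0 3 : Group.IsNilpotent R' ↔ ∀ (p : ℕ) (_ : Fact p.Prime) (P : Sylow p R'), (P : Subgroup R').Normal).mp hR'n q inferInstance T
  haveI hTc : (T : Subgroup R').Characteristic := T.characteristic_of_normal hTn
  set Q' := (T : Subgroup R').map R'.subtype with hQ'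
  haveI hQ'n : Q'.Normal := ConjAct.normal_of_characteristic_of_normal
  have hQ'q : IsPGroup q Q' := T.2.map _
  have hQ'R : Q' ≤ R' := Subgroup.map_subtype_le _
  have hQ'ne : Q' ≠ ⊥ := by
    intro h
    rw [Subgroup.map_eq_bot_iff_of_injective _ R'.subtype_injective] at h
    exact T.ne_bot_of_dvd_card hqd h
  have hidx : ¬ q ∣ Q'.relIndex R' := by
    rw [Subgroup.relIndex, Subgroup.subgroupOf, hQ', Subgroup.comap_map_eq_self_of_injective R'.subtype_injective]
    exact T.not_dvd_index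
  have hRi : ∀ a, ∀ x ∈ R, φ a x ∈ R := fun a x hx =>
    (Subgroup.characteristic_iff_map_le.1 (inferInstance : R.Characteristic) (φ a)) ⟨x, hx, rfl⟩
  set M := Q'.comap mk with hM
  haveI : M.Normal := inferInstance
  have hMi : ∀ a, ∀ x ∈ M, φ a x ∈ M := by
    intro a x hx
    let σ : MulAut (G ⧸ N) := QuotientGroup.congr N N (φ a) (map_eq_of_invariant φ N hNi a)
    have hσR : ∀ y ∈ R', σ y ∈ R' := by
      rintro _ ⟨y, hy, rfl⟩
      exact ⟨φ a y, hRi a y hy, rfl⟩
    obtain ⟨y, hy, hye⟩ := hx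
    have hσ' : R'.map σ.toMonoidHom = R' := Subgroup.eq_of_le_of_card_ge
      (by rintro _ ⟨z, hz, rfl⟩; exact hσR z hz)
      (by rw [Subgroup.card_map_of_injective (f := σ.toMonoidHom) σ.injective])
    let σR : MulAut R' := (σ.subgroupMap R').trans (MulEquiv.subgroupCongr hσ')
    refine ⟨σR y, (Subgroup.characteristic_iff_map_le.1 hTc σR) ⟨y, hy, rfl⟩, ?_⟩
    show σ (y : G ⧸ N) = mk (φ a x)
    rw [show (y : G ⧸ N) = mk x from hye]
    rfl
  obtain ⟨Q0, hQ0i⟩ := exists_invariant_sylow_le φ M hMi hcop hAsol q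
  set Q := (Q0 : Subgroup M).map M.subtype with hQdef
  have hQM : Q ≤ M := Subgroup.map_subtype_le _
  have hQq : IsPGroup q Q := Q0.2.map _
  have hQN : Q ⊓ N = ⊥ := (IsPGroup.disjoint_of_ne q r hqr _ _ hQq hNr).eq_bot
  have hQmap : Q.map mk = Q' := by
    let g : M →* Q' := mk.subgroupComap Q'
    have hg : Function.Surjective g := by
      rintro ⟨y, hy⟩
      obtain ⟨x, rfl⟩ := hmks y
      exact ⟨⟨x, hy⟩, rfl⟩
    have htop : ((Q0.mapSurjective hg : Sylow q Q') : Subgroup Q') = ⊤ :=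
      ((Q0.mapSurjective hg).3 (hQ'q.of_surjective (Subgroup.topEquiv (G := Q')).symm.toMonoidHom (Subgroup.topEquiv (G := Q')).symm.surjective) le_top).symm
    refine le_antisymm (Subgroup.map_le_iff_le_comap.2 hQM) fun y hy => ?_
    have hy2 : (⟨y, hy⟩ : Q') ∈ ((Q0.mapSurjective hg : Sylow q Q') : Subgroup Q') := htop ▸ Subgroup.mem_top _
    obtain ⟨x, hx, hxe⟩ := hy2
    exact ⟨(x : G), ⟨x, hx, rfl⟩, congrArg Subtype.val hxe⟩
  have hQ1 : Q ≠ ⊥ := fun h => hQ'ne (by rw [← hQmap, h, Subgroup.map_bot])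
  set H := Subgroup.normalizer (Q : Set G) with hH
  have hHM : H ⊔ M = ⊤ := Sylow.normalizer_sup_eq_top Q0
  have hMQN : M ≤ Q ⊔ N := by
    intro x hx
    obtain ⟨y, hy, hye⟩ := hQmap.ge hx
    have : y⁻¹ * x ∈ N := QuotientGroup.eq.1 hye
    simpa using mul_mem (Subgroup.mem_sup_left (T := N) hy) (Subgroup.mem_sup_right this)
  have hHN : H ⊔ N = ⊤ := by
    rw [eq_top_iff, ← hHM]
    exact sup_le le_sup_left (hMQN.trans (sup_le (Subgroup.le_normalizer.trans le_sup_left) le_sup_right))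
  have hHi : ∀ a, ∀ x ∈ H, φ a x ∈ H := by
    intro a x hx
    rw [hH, Subgroup.mem_normalizer_iff] at hx ⊢
    intro z
    obtain ⟨w, rfl⟩ := (φ a).surjective z
    rw [← map_inv, ← map_mul, ← map_mul]
    have hmem : ∀ w, φ a w ∈ Q ↔ w ∈ Q := fun w => ⟨fun h => by
      obtain ⟨v, hv, hve⟩ := (map_eq_of_invariant φ Q hQ0i a).ge h
      exact (φ a).injective hve ▸ hv, fun h => hQ0i a w h⟩
    rw [hmem, hmem]
    exact hx w
  have hnormal : ∀ L : Subgroup G, (∀ h ∈ H, ∀ x ∈ L, h * x * h⁻¹ ∈ L) →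
      (∀ n ∈ N, ∀ x ∈ L, n * x * n⁻¹ ∈ L) → L.Normal := by
    intro L hH' hN'
    refine Subgroup.normalizer_eq_top_iff.1 ?_
    rw [eq_top_iff, ← hHN]
    exact sup_le (Subgroup.le_normalizer_iff.2 hH') (Subgroup.le_normalizer_iff.2 hN')
  have hCNQ : ∀ x ∈ N, (∀ y ∈ Q, y * x = x * y) → x = 1 := by
    set L := N ⊓ Subgroup.centralizer (Q : Set G) with hL
    have hLn : L.Normal := by
      refine hnormal L (fun h hh x hx => ?_) (fun w hw x hx => ?_)
      · exact (Subgroup.mem_normalizer_iff.1 (Subgroup.inf_normalizer_le_normalizer_inf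
          ⟨by rw [Subgroup.normalizer_eq_top]; exact Subgroup.mem_top _, mem_normalizer_centralizer hh⟩) x).1 hx
      · rwa [hNab w hw x hx.1, mul_inv_cancel_right]
    have hLi : ∀ a, ∀ x ∈ L, φ a x ∈ L := fun a x hx => ⟨hNi a x hx.1, Subgroup.mem_centralizer_iff.2 fun y hy => by
      obtain ⟨w, hw, rfl⟩ := (map_eq_of_invariant φ Q hQ0i a).ge hy
      show φ a w * φ a x = φ a x * φ a w
      rw [← map_mul, ← map_mul, Subgroup.mem_centralizer_iff.1 hx.2 w hw]⟩
    rcases hmin' L hLn hLi inf_le_left with h | h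
    · intro x hx hxy
      exact Subgroup.mem_bot.1 (h.le ⟨hx, Subgroup.mem_centralizer_iff.2 hxy⟩)
    · exfalso
      have hNH : N ≤ H := fun w hw => mem_normalizer_of_forall_commute fun y hy =>
        (Subgroup.mem_centralizer_iff.1 (h.ge hw).2 y hy).symm
      have htop : H = ⊤ := eq_top_iff.2 (hHN.ge.trans (sup_le le_rfl hNH))
      haveI : Q.Normal := Subgroup.normalizer_eq_top_iff.1 htop
      exact hN1 (eq_bot_iff.2 fun x hx => hQN.le ⟨huniq Q inferInstance hQ0i hQ1 hx, hx⟩)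
  have hNH : N ⊓ H = ⊥ := by
    rw [eq_bot_iff]
    intro x hx
    refine Subgroup.mem_bot.2 (hCNQ x hx.1 fun y hy => ?_)
    have h1 : x * y * x⁻¹ * y⁻¹ ∈ Q ⊓ N := ⟨Q.mul_mem ((Subgroup.mem_normalizer_iff.1 hx.2 y).1 hy) (Q.inv_mem hy), by
      rw [show x * y * x⁻¹ * y⁻¹ = x * (y * x⁻¹ * y⁻¹) by group]
      exact N.mul_mem hx.1 (hNn.conj_mem _ (N.inv_mem hx.1) y)⟩
    rw [hQN, Subgroup.mem_bot, mul_inv_eq_one, mul_inv_eq_iff_eq_mul] at h1
    exact h1.symm
  have hfaith : ∀ x ∈ Q, (∀ v ∈ N, Commute x v) → x = 1 := by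
    set L := H ⊓ Subgroup.centralizer (N : Set G) with hL
    have hLn : L.Normal := by
      refine hnormal L (fun h hh x hx => ?_) (fun w hw x hx => ?_)
      · exact (Subgroup.mem_normalizer_iff.1 (Subgroup.inf_normalizer_le_normalizer_inf
          ⟨Subgroup.le_normalizer hh, mem_normalizer_centralizer
            (by rw [Subgroup.normalizer_eq_top]; exact Subgroup.mem_top _)⟩) x).1 hx
      · rwa [Subgroup.mem_centralizer_iff.1 hx.2 w hw, mul_inv_cancel_right]
    have hLi : ∀ a, ∀ x ∈ L, φ a x ∈ L := fun a x hx => ⟨hHi a x hx.1, Subgroup.mem_centralizer_iff.2 fun y hy => by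
      obtain ⟨w, hw, rfl⟩ := (map_eq_of_invariant φ N hNi a).ge hy
      show φ a w * φ a x = φ a x * φ a w
      rw [← map_mul, ← map_mul, Subgroup.mem_centralizer_iff.1 hx.2 w hw]⟩
    intro x hx hxv
    by_contra hx1
    have hxL : x ∈ L := ⟨Subgroup.le_normalizer hx, Subgroup.mem_centralizer_iff.2 fun v hv => (hxv v hv).eq.symm⟩
    have hle := huniq L hLn hLi (fun h => hx1 (Subgroup.mem_bot.1 (h ▸ hxL)))
    exact hN1 (eq_bot_iff.2 fun w hw => hNH.le ⟨hw, (hle hw).1⟩)
  -- the operator group inside the semidirect product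
  have S : Setup p (actA φ) (actK φ ⊤) :=
    { hp := hp
      comm := by
        rintro _ ⟨a, rfl⟩ _ ⟨b, rfl⟩
        exact (show Commute a b from hcomm a b).map _
      expA := by rintro _ ⟨a, rfl⟩; rw [← map_pow, hexp, map_one]
      cardA := by rw [card_actA, hcard]
      hAK := actA_le_normalizer φ fun _ _ _ => Subgroup.mem_top _
      hcop := by rw [card_actA, card_actK, Subgroup.card_top]; exact hcop
      fix := by
        rintro _ ⟨x, -, rfl⟩ h
        rw [hfpf x ((mem_centralizer_actA_iff φ x).1 (Subgroup.mem_centralizer_iff.2 fun a ha => (h a ha).eq)),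
          map_one] }
  haveI : IsMulCommutative (actK φ N) := ⟨⟨by
    rintro ⟨_, x, hx, rfl⟩ ⟨_, y, hy, rfl⟩
    exact Subtype.ext (by
      show SemidirectProduct.inl x * SemidirectProduct.inl y = SemidirectProduct.inl y * SemidirectProduct.inl x
      rw [← map_mul, hNab x hx y hy, map_mul])⟩⟩
  have hnormK : ∀ L K : Subgroup G, L ≤ Subgroup.normalizer (K : Set G) →
      actK φ L ≤ Subgroup.normalizer (actK φ K : Set (G ⋊[φ] A)) := fun L K h => by
    rw [Subgroup.le_normalizer_iff]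
    rintro _ ⟨x, hx, rfl⟩ _ ⟨y, hy, rfl⟩
    exact ⟨x * y * x⁻¹, (Subgroup.mem_normalizer_iff.1 (h hx) y).1 hy, by simp⟩
  have hC : ∀ s : ℕ, s.Prime → s ≠ q → ¬ s ∣ (Subgroup.centralizer (Q' : Set (G ⧸ N))).index := by
    intro s hs hsq
    haveI := Fact.mk hs
    obtain ⟨S0, hS0i⟩ := exists_invariant_sylow_le φ H hHi hcop hAsol s
    set P := (S0 : Subgroup H).map H.subtype with hP
    have hPH : P ≤ H := Subgroup.map_subtype_le _
    have htopN : ∀ L : Subgroup G, L ≤ Subgroup.normalizer (N : Set G) := fun L => by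
      rw [Subgroup.normalizer_eq_top]; exact le_top
    have hcore := core S hq hr hs hqr hsq (actK φ N) (actK φ P) (actK φ Q) (Subgroup.map_mono le_top)
      (Subgroup.map_mono le_top) (Subgroup.map_mono le_top) (hNr.map _) (hQq.map _) ((S0.2.map _).map _)
      (actA_le_normalizer φ hNi) (hnormK _ _ (htopN P)) (hnormK _ _ (htopN Q))
      (actA_le_normalizer φ hS0i) (actA_le_normalizer φ hQ0i) (hnormK _ _ hPH)
      (by
        rintro _ ⟨x, hx, rfl⟩ h
        rw [hfaith x hx fun v hv => SemidirectProduct.inl_injective (φ := φ) (by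
          rw [map_mul, map_mul]; exact (h _ ⟨v, hv, rfl⟩).eq), map_one])
    have hPC : P.map mk ≤ Subgroup.centralizer (Q' : Set (G ⧸ N)) := by
      rintro _ ⟨x, hx, rfl⟩
      rw [Subgroup.mem_centralizer_iff]
      intro y hy
      obtain ⟨w, hw, rfl⟩ := hQmap.ge hy
      have h := Subgroup.mem_centralizer_iff.1 (hcore ⟨x, hx, rfl⟩) _ ⟨w, hw, rfl⟩
      rw [← map_mul, ← map_mul] at h
      rw [← map_mul, ← map_mul, SemidirectProduct.inl_injective h]
    have hsurj : Function.Surjective (mk.comp H.subtype) := by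
      intro y
      obtain ⟨x, rfl⟩ := hmks y
      obtain ⟨h, hh, w, hw, rfl⟩ := Subgroup.mem_sup_of_normal_right.1 (hHN.ge (Subgroup.mem_top x))
      refine ⟨⟨h, hh⟩, QuotientGroup.eq.2 ?_⟩
      simpa using hw
    intro hd
    refine (S0.mapSurjective hsurj).not_dvd_index (hd.trans (Subgroup.index_dvd_of_le ?_))
    rintro _ ⟨x, hx, rfl⟩
    exact hPC ⟨(x : G), ⟨x, hx, rfl⟩, rfl⟩
  refine hQ'ne (eq_bot_of_lcs hq R' Q' hstab' hQ'R hQ'q hidx ⟨_, Nat.eq_prime_pow_of_unique_prime_dvd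
    Subgroup.index_ne_zero_of_finite fun {d} hd hdd => ?_⟩)
  by_contra hne
  exact hC d hd hne hdd

end CfsgLib.FpfRankTwo
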